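/-
H24: the small Ree groups: generation by two elements.
-/
import Cfsg.Agent.Lib.H24.ReeTor1
set_option autoImplicit false
set_option linter.unusedSimpArgs false
set_option linter.unusedVariables false
set_option linter.unusedSectionVars false
namespace H24.ReeGen

open Cfsg.Lie Matrix H24.ReeBlk H24.ReeAd H24.ReeAl H24.ReeGood H24.ReePts H24.ReeGrp
open H24.ReeAct H24.ReeStr H24.ReeInt H24.ReeUni H24.ReeSub H24.ReeSyl H24.ReeSyl3 H24.ReeCen H24.ReeSyl2 H24.ReeInvo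
open H24.ReeFour H24.ReeTor
open scoped MatrixGroups Pointwise

variable {K : Type*} [Field K] {e : ℕ} [RF K e] [Finite K]

theorem exists_weight {t : K} (ht : t ≠ 0) : ∃ l : Kˣ, ph K e l ^ 2 / (l : K) ^ 3 = t := by
  have hinj : Function.Injective (fun l : Kˣ => (Units.map (ph K e : K →* K) l) ^ 2 / l ^ 3) := by
    intro l l' hl
    simp only at hl
    have h5 : (Units.map (ph K e : K →* K) (l / l')) ^ 2 = (l / l') ^ 3 := by
      rw [map_div, div_pow, div_pow, div_eq_div_iff_div_eq_div]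
      exact hl
    have h6 := congrArg Units.val h5
    have h7 := ph_t (e := e) (Units.ne_zero (l / l')) (by simpa using h6)
    have h8 : l / l' = 1 := Units.ext h7
    exact div_eq_one.1 h8
  obtain ⟨l, hl⟩ := Finite.injective_iff_surjective.1 hinj (Units.mk0 t ht)
  have h6 := congrArg Units.val hl
  exact ⟨l, by simpa using h6⟩

theorem exists_sq_weight {x : K} (hx : x ≠ 0) : ∃ l : Kˣ, (l : K) ^ 3 / ph K e l = x ^ 2 := by
  obtain ⟨y, hx3⟩ : ∃ y : K, y ^ 3 = x := ⟨(x ^ e) ^ e, RF.sq x⟩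
  have hy0 : y ≠ 0 := by rintro h; rw [h] at hx3; apply hx; rw [← hx3]; norm_num
  have hphy : ph K e y ≠ 0 := fun h0 => hy0 ((map_eq_zero _).1 h0)
  refine ⟨Units.mk0 (y ^ 3 * ph K e y) (mul_ne_zero (pow_ne_zero _ hy0) hphy), ?_⟩
  rw [Units.val_mk0, map_mul, map_pow, ph_ph, ← hx3]
  field_simp

/-- a subgroup containing the torus and all `t`-coordinates contains the unipotent group -/
theorem unip_le {m : ℕ} (hm : 1 ≤ m) (hn : Nat.card K = 3 ^ (2 * m + 1)) {N : Subgroup (G1 K e)} (hT1 : T1 K e ≤ N)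
    (h1 : ∀ κ : K, κ ≠ 0 → (uG 1 0 0 * (uG κ 0 0)⁻¹ : G1 K e) ∈ N) (t u v : K) : uG t u v ∈ N := by
  have h3 := three0 (K := K) (e := e)
  have h2ne := two_ne' (K := K) (e := e)
  have hl : ∀ l : Kˣ, (hT l : G1 K e) ∈ N := fun l => hT1 ⟨l, rfl⟩
  -- step 1
  have s1 : ∀ t : K, ∃ u v : K, (uG t u v : G1 K e) ∈ N := by
    have s0 : ∀ t : K, t ≠ 1 → ∃ u v : K, (uG t u v : G1 K e) ∈ N := by
      intro t ht
      have hm1 : (uG 1 0 0 * (uG (1 - t) 0 0)⁻¹ : G1 K e) ∈ U1 K e := mul_mem (uG_mem _ _ _) (inv_mem (uG_mem _ _ _))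
      obtain ⟨a, b, d, hab⟩ := mem_U1_iff.1 hm1
      have h4 : (uG a b d * uG (1 - t) 0 0 : G1 K e) = uG 1 0 0 := by rw [← hab]; group
      rw [uG_mul] at h4
      have h5 := (uG_inj h4).1
      have h6 : a = t := by linear_combination h5
      refine ⟨b, d, ?_⟩
      rw [← h6, ← hab]
      exact h1 _ (sub_ne_zero.2 (Ne.symm ht))
    intro t
    by_cases ht : t = 1
    · subst ht
      obtain ⟨a, b, hab⟩ := s0 (-1) (by
        intro h
        apply h2ne
        linear_combination -h)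
      have h4 := mul_mem hab hab
      rw [uG_mul] at h4
      refine ⟨a + a - -1 * ph K e (-1), b + b - (-1) ^ 2 * ph K e (-1) - -1 * a + -1 * -1 * ph K e (-1), ?_⟩
      rw [show (-1 : K) + -1 = 1 by linear_combination -h3] at h4
      exact h4
    · exact s0 t ht
  -- step 2
  have s2add : ∀ a b : K, (∃ v, (uG 0 a v : G1 K e) ∈ N) → (∃ v, (uG 0 b v : G1 K e) ∈ N) → ∃ v, (uG 0 (a + b) v : G1 K e) ∈ N := by
    rintro a b ⟨v, hv⟩ ⟨v', hv'⟩
    have h4 := mul_mem hv hv'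
    rw [uG_mul] at h4
    refine ⟨v + v', ?_⟩
    convert h4 using 2 <;> simp
  have s2neg : ∀ a : K, (∃ v, (uG 0 a v : G1 K e) ∈ N) → ∃ v, (uG 0 (-a) v : G1 K e) ∈ N := by
    rintro a ⟨v, hv⟩
    refine ⟨-v, ?_⟩
    have h4 : (uG 0 (-a) (-v) : G1 K e) = (uG 0 a v)⁻¹ := by
      rw [eq_inv_iff_mul_eq_one, uG_mul, ← uG_zero]
      congr 1 <;> simp
    rw [h4]
    exact inv_mem hv
  have s2sq : ∀ x a : K, (∃ v, (uG 0 a v : G1 K e) ∈ N) → ∃ v, (uG 0 (x ^ 2 * a) v : G1 K e) ∈ N := by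
    rintro x a ⟨v, hv⟩
    by_cases hx : x = 0
    · refine ⟨0, ?_⟩
      rw [hx]
      have : (uG 0 (0 ^ 2 * a) 0 : G1 K e) = 1 := by rw [← uG_zero]; congr 1; simp
      rw [this]; exact one_mem _
    · obtain ⟨l, hl2⟩ := exists_sq_weight (e := e) hx
      have h4 := mul_mem (mul_mem (hl l) hv) (inv_mem (hl l))
      rw [hT_conj, hl2, mul_zero] at h4
      exact ⟨_, h4⟩
  have s2mul : ∀ x a : K, (∃ v, (uG 0 a v : G1 K e) ∈ N) → ∃ v, (uG 0 (x * a) v : G1 K e) ∈ N := by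
    intro x a h
    have h4 := s2add _ _ (s2sq (x + 1) a h) (s2neg _ (s2sq (x - 1) a h))
    have h5 : (x + 1) ^ 2 * a + -((x - 1) ^ 2 * a) = x * a := by linear_combination (x * a) * h3
    rwa [h5] at h4
  obtain ⟨t0, ht0⟩ : ∃ t0 : K, ph K e t0 ≠ t0 := by
    by_contra hcon
    push Not at hcon
    have hall : ∀ t : K, t = 0 ∨ t = 1 ∨ t = -1 := by
      intro t
      have h4 := ph_ph (K := K) (e := e) t
      rw [hcon, hcon] at h4
      have h5 : t * ((t - 1) * (t + 1)) = 0 := by linear_combination -h4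
      rcases mul_eq_zero.1 h5 with h6 | h6
      · exact Or.inl h6
      · rcases mul_eq_zero.1 h6 with h7 | h7
        · exact Or.inr (Or.inl (by linear_combination h7))
        · exact Or.inr (Or.inr (by linear_combination h7))
    have hcard : 3 < Nat.card K := by
      rw [hn]
      calc 3 = 3 ^ 1 := by norm_num
        _ < 3 ^ (2 * m + 1) := Nat.pow_lt_pow_right (by norm_num) (by omega)
    have h6 : (Set.univ : Set K) ⊆ {0, 1, -1} := fun t _ => hall t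
    have h7 := Set.ncard_le_ncard h6
    rw [Set.ncard_univ] at h7
    have h8 : ({0, 1, -1} : Set K).ncard ≤ 3 := by
      refine (Set.ncard_insert_le _ _).trans ?_
      have := Set.ncard_insert_le (1 : K) {-1}
      rw [Set.ncard_singleton] at this
      omega
    omega
  have s2 : ∀ a : K, ∃ v, (uG 0 a v : G1 K e) ∈ N := by
    have h4 : ∃ v, (uG 0 (ph K e t0 - t0) v : G1 K e) ∈ N := by
      obtain ⟨u, v, hx⟩ := s1 t0
      obtain ⟨u', v', hy⟩ := s1 1
      have h5 := mul_mem (mul_mem hx hy) (inv_mem (mul_mem hy hx))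
      have hm1 : (uG t0 u v * uG 1 u' v' * (uG 1 u' v' * uG t0 u v)⁻¹ : G1 K e) ∈ U1 K e :=
        mul_mem (mul_mem (uG_mem _ _ _) (uG_mem _ _ _)) (inv_mem (mul_mem (uG_mem _ _ _) (uG_mem _ _ _)))
      obtain ⟨a, b, d, hab⟩ := mem_U1_iff.1 hm1
      have h6 : (uG a b d * (uG 1 u' v' * uG t0 u v) : G1 K e) = uG t0 u v * uG 1 u' v' := by rw [← hab]; group
      rw [uG_mul, uG_mul, uG_mul] at h6
      obtain ⟨h7, h8, -⟩ := uG_inj h6
      have ha : a = 0 := by linear_combination h7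
      rw [ha, map_one] at h8
      have hb : b = ph K e t0 - t0 := by linear_combination h8
      rw [hab, ha, hb] at h5
      exact ⟨d, h5⟩
    intro a
    have h5 := s2mul (a / (ph K e t0 - t0)) _ h4
    rwa [div_mul_cancel₀ _ (sub_ne_zero.2 ht0)] at h5
  -- step 3
  have s3 : ∀ v : K, (uG 0 0 v : G1 K e) ∈ N := by
    intro v
    obtain ⟨u', v', hx⟩ := s1 1
    obtain ⟨v'', hy⟩ := s2 v
    have h5 := mul_mem (mul_mem hx hy) (inv_mem (mul_mem hy hx))
    have h6 : (uG 0 0 v : G1 K e) = uG 1 u' v' * uG 0 v v'' * (uG 0 v v'' * uG 1 u' v')⁻¹ := by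
      rw [eq_mul_inv_iff_mul_eq, uG_mul, uG_mul, uG_mul]
      congr 1
      · simp
      · simp; ring
      · simp; ring
    rw [h6]; exact h5
  -- step 4
  have s4 : ∀ u v : K, (uG 0 u v : G1 K e) ∈ N := by
    intro u v
    obtain ⟨v'', hy⟩ := s2 u
    have h5 := mul_mem hy (s3 (v - v''))
    have h6 : (uG 0 u v : G1 K e) = uG 0 u v'' * uG 0 0 (v - v'') := by
      rw [uG_mul]; congr 1 <;> simp
    rw [h6]; exact h5
  obtain ⟨u', v', hx⟩ := s1 t
  have h5 := mul_mem (s4 (u - u') (v - v' + t * (u - u'))) hx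
  have h6 : (uG t u v : G1 K e) = uG 0 (u - u') (v - v' + t * (u - u')) * uG t u' v' := by
    rw [uG_mul]
    congr 1
    · simp
    · simp
    · simp
      ring
  rw [h6]; exact h5

/-- the stabiliser of a point is maximal -/
theorem stab_max {N : Subgroup (G1 K e)} (hB : ∀ g : G1 K e, g • (none : Pt K) = none → g ∈ N) {b : G1 K e} (hb : b ∈ N)
    (hb1 : b • (none : Pt K) ≠ none) : N = ⊤ := by
  rw [eq_top_iff]
  intro y _
  by_cases hy : y • (none : Pt K) = none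
  · exact hB y hy
  rcases hp : b • (none : Pt K) with _ | ⟨t, u, v⟩
  · exact absurd hp hb1
  rcases hq : y • (none : Pt K) with _ | ⟨t', u', v'⟩
  · exact absurd hq hy
  have h1 : (uG t' u' v' * (uG t u v)⁻¹ : G1 K e) ∈ N := mul_mem (hB _ (uG_none _ _ _).1) (inv_mem (hB _ (uG_none _ _ _).1))
  have h2 : (y⁻¹ * (uG t' u' v' * (uG t u v)⁻¹) * b) • (none : Pt K) = none := by
    rw [mul_smul, mul_smul, hp, mul_smul, inv_smul_eq_iff.2 (uG_o0 t u v).1.symm, (uG_o0 t' u' v').1, inv_smul_eq_iff, hq]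
  have h3 := hB _ h2
  have h4 : y = (uG t' u' v' * (uG t u v)⁻¹) * b * (y⁻¹ * (uG t' u' v' * (uG t u v)⁻¹) * b)⁻¹ := by group
  rw [h4]
  exact mul_mem (mul_mem h1 hb) (inv_mem h3)

theorem two_gen {m : ℕ} (hm : 1 ≤ m) (hn : Nat.card K = 3 ^ (2 * m + 1)) :
    ∃ a b : G1 K e, Subgroup.closure ({a, b} : Set (G1 K e)) = ⊤ := by
  obtain ⟨⟨a, haT⟩, ha⟩ := (cyclic_T1 (K := K) (e := e)).exists_generator
  obtain ⟨n, n1, n2⟩ := exists_swap' (K := K) (e := e)
  set b : G1 K e := uG 1 0 0 * n with hb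
  refine ⟨a, b, ?_⟩
  set N := Subgroup.closure ({a, b} : Set (G1 K e)) with hN
  have haN : a ∈ N := Subgroup.subset_closure (Or.inl rfl)
  have hbN : b ∈ N := Subgroup.subset_closure (Or.inr rfl)
  have hT1 : T1 K e ≤ N := by
    intro x hx
    obtain ⟨k, hk⟩ := Subgroup.mem_zpowers_iff.1 (ha ⟨x, hx⟩)
    have h1 : a ^ k = x := congrArg Subtype.val hk
    rw [← h1]
    exact Subgroup.zpow_mem _ haN k
  have hl : ∀ l : Kˣ, (hT l : G1 K e) ∈ N := fun l => hT1 ⟨l, rfl⟩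
  have h1 : ∀ κ : K, κ ≠ 0 → (uG 1 0 0 * (uG κ 0 0)⁻¹ : G1 K e) ∈ N := by
    intro κ hκ
    obtain ⟨l, hl2⟩ := exists_weight (e := e) hκ
    have h2 : (b * (hT l)⁻¹ * b⁻¹ * (hT l)⁻¹ : G1 K e) ∈ N :=
      mul_mem (mul_mem (mul_mem hbN (inv_mem (hl l))) (inv_mem hbN)) (inv_mem (hl l))
    have h3 : n * (hT l)⁻¹ * n⁻¹ = (hT l : G1 K e) := by
      have := swap_inv n1 n2 l
      calc n * (hT l)⁻¹ * n⁻¹ = (n * hT l * n⁻¹)⁻¹ := by group
        _ = (hT l : G1 K e) := by rw [this, inv_inv]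
    have h4 : (uG 1 0 0 * (uG κ 0 0)⁻¹ : G1 K e) = b * (hT l)⁻¹ * b⁻¹ * (hT l)⁻¹ := by
      have h5 := hT_conj (K := K) (e := e) l 1 0 0
      rw [mul_one, mul_zero, mul_zero, hl2] at h5
      rw [← h5, hb]
      calc (uG 1 0 0 * (hT l * uG 1 0 0 * (hT l)⁻¹)⁻¹ : G1 K e) = uG 1 0 0 * hT l * (uG 1 0 0)⁻¹ * (hT l)⁻¹ := by group
        _ = uG 1 0 0 * (n * (hT l)⁻¹ * n⁻¹) * (uG 1 0 0)⁻¹ * (hT l)⁻¹ := by rw [h3]
        _ = _ := by group
    rw [h4]; exact h2
  apply stab_max (b := b)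
  · intro g hg
    obtain ⟨t, u, v, l, rfl⟩ := exists_uh hg
    exact mul_mem (unip_le hm hn hT1 h1 t u v) (hl l)
  · exact hbN
  · rw [hb, mul_smul, n1, (uG_o0 1 0 0).1]
    simp

end H24.ReeGen
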