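import Mathlib

/-! Additive maps of a finite field are combinations of field automorphisms (helper24). -/

set_option autoImplicit false

namespace H24.AddFieldMaps

open Module

variable {F : Type*} [Field F] [Finite F]

theorem linearIndependent_ringEquiv :
    LinearIndependent F (fun σ : F ≃+* F => ((σ : F →+* F) : F → F)) := by
  have h := linearIndependent_monoidHom F F
  exact h.comp (fun σ : F ≃+* F => ((σ : F →+* F) : F →* F)) (by
    intro σ τ h
    ext x
    exact DFunLike.congr_fun h x)

instance finite_ringEquiv : Finite (F ≃+* F) :=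
  Finite.of_injective (fun σ : F ≃+* F => (σ : F → F)) DFunLike.coe_injective

/-- uniqueness of coefficients -/
theorem coeff_unique [Fintype (F ≃+* F)] {c : (F ≃+* F) → F} (h : ∀ x, ∑ σ, c σ * σ x = 0) (σ : F ≃+* F) :
    c σ = 0 := by
  have h1 := Fintype.linearIndependent_iff.mp (linearIndependent_ringEquiv (F := F)) c (by
    ext x
    simpa using h x)
  exact h1 σ

theorem exists_coeff (p : ℕ) [Fact p.Prime] [CharP F p] [Fintype (F ≃+* F)] (f : F →+ F) :
    ∃ c : (F ≃+* F) → F, ∀ x, f x = ∑ σ, c σ * σ x := by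
  classical
  letI : Algebra (ZMod p) F := ZMod.algebra F p
  haveI : FiniteDimensional (ZMod p) F := Module.Finite.of_finite
  have hli := linearIndependent_toLinearMap (ZMod p) F F
  have hcard : Fintype.card (F →ₐ[ZMod p] F) = finrank F (F →ₗ[ZMod p] F) := by
    rw [Module.finrank_linearMap_self, ← IsGalois.card_aut_eq_finrank (ZMod p) F,
      ← Nat.card_eq_fintype_card]
    exact (Nat.card_congr (algEquivEquivAlgHom (ZMod p) F).toEquiv).symm
  have hspan := hli.span_eq_top_of_card_eq_finrank' hcard
  have hmem : f.toZModLinearMap p ∈ Submodule.span F (Set.range (AlgHom.toLinearMap : (F →ₐ[ZMod p] F) → F →ₗ[ZMod p] F)) := by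
    rw [hspan]; trivial
  rw [Submodule.mem_span_range_iff_exists_fun] at hmem
  obtain ⟨c, hc⟩ := hmem
  -- transfer to ring equivs
  let e : (F →ₐ[ZMod p] F) ≃ (F ≃+* F) :=
    { toFun := fun σ => ((algEquivEquivAlgHom (ZMod p) F).symm σ).toRingEquiv
      invFun := fun σ => AlgHom.mk (σ : F →+* F) (by
        intro r
        exact RingHom.congr_fun (Subsingleton.elim ((σ : F →+* F).comp (algebraMap (ZMod p) F)) (algebraMap (ZMod p) F)) r)
      left_inv := fun σ => by ext x; rfl
      right_inv := fun σ => by ext x; rfl }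
  refine ⟨fun σ => c (e.symm σ), fun x => ?_⟩
  have h1 := LinearMap.congr_fun hc x
  simp only [LinearMap.sum_apply, LinearMap.smul_apply, smul_eq_mul] at h1
  have h2 : f.toZModLinearMap p x = f x := rfl
  rw [← h2, ← h1]
  exact Fintype.sum_equiv e _ _ (fun σ => by simp; left; rfl)

theorem exists_coeff_bi (p : ℕ) [Fact p.Prime] [CharP F p] [Fintype (F ≃+* F)] (B : F →+ F →+ F) :
    ∃ c : (F ≃+* F) → (F ≃+* F) → F, ∀ x y, B x y = ∑ τ, ∑ σ, c τ σ * (σ x * τ y) := by
  classical
  choose C hC using fun x => exists_coeff p (B x)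
  have hadd : ∀ x x' τ, C (x + x') τ = C x τ + C x' τ := by
    intro x x' τ
    have := coeff_unique (F := F) (c := fun τ => C (x + x') τ - (C x τ + C x' τ)) (by
      intro y
      have h1 := hC (x + x') y
      have h2 := hC x y
      have h3 := hC x' y
      rw [map_add, AddMonoidHom.add_apply, h2, h3] at h1
      simp only [sub_mul, add_mul, Finset.sum_sub_distrib, Finset.sum_add_distrib]
      rw [← h1, sub_self]) τ
    exact sub_eq_zero.mp this
  choose D hD using fun τ => exists_coeff p
    ({ toFun := fun x => C x τ, map_zero' := by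
        have := hadd 0 0 τ
        rw [add_zero] at this
        exact left_eq_add.mp this
       map_add' := fun x x' => hadd x x' τ } : F →+ F)
  refine ⟨D, fun x y => ?_⟩
  rw [hC x y]
  apply Finset.sum_congr rfl
  intro τ _
  have := hD τ x
  simp only [AddMonoidHom.coe_mk, ZeroHom.coe_mk] at this
  rw [this, Finset.sum_mul]
  apply Finset.sum_congr rfl
  intro σ _
  ring

theorem coeff_unique_bi [Fintype (F ≃+* F)] {c : (F ≃+* F) → (F ≃+* F) → F}
    (h : ∀ x y, ∑ τ, ∑ σ, c τ σ * (σ x * τ y) = 0) (τ σ : F ≃+* F) : c τ σ = 0 := by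
  have h1 : ∀ x, ∑ σ, c τ σ * σ x = 0 := by
    intro x
    apply coeff_unique (c := fun τ => ∑ σ, c τ σ * σ x)
    intro y
    rw [← h x y]
    apply Finset.sum_congr rfl
    intro τ _
    rw [Finset.sum_mul]
    apply Finset.sum_congr rfl
    intro σ _
    ring
  exact coeff_unique h1 σ

end H24.AddFieldMaps
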