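import Cfsg.Agent.Lib.H7.Matsumoto

/-! Finite groups generated by two distinct involutions: order, alternating words are reduced (helper24). -/

set_option autoImplicit false

namespace H24.Dihed

open H7.CoxComb H7.Matsumoto

variable {W : Type*} [Group W] {ι : Type*} {f : ι → W} {a b : ι}

theorem not_mem_zpowers (sq : ∀ i, f i * f i = 1) (ha : f a ≠ 1) (hb : f b ≠ 1) :
    f a ∉ Subgroup.zpowers (f a * f b) := by
  intro h
  have hcomm : f a * (f a * f b) = (f a * f b) * f a := by
    obtain ⟨k, hk⟩ := Subgroup.mem_zpowers_iff.mp h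
    have hc := (Commute.refl (f a * f b)).zpow_left k
    rw [hk] at hc
    exact hc
  have h1 : f b = f a * f b * f a := by
    rw [← mul_assoc, sq, one_mul] at hcomm; exact hcomm
  have h2 : f b * f a = f a * f b := by
    nth_rw 1 [h1]
    rw [mul_assoc, sq, mul_one]
  have h3 : (f a * f b) ^ 2 = 1 := by
    rw [pow_two]
    calc f a * f b * (f a * f b) = f a * (f b * f a) * f b := by simp only [mul_assoc]
      _ = f a * (f a * f b) * f b := by rw [h2]
      _ = (f a * f a) * (f b * f b) := by simp only [mul_assoc]
      _ = 1 := by rw [sq, sq, one_mul]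
  obtain ⟨k, hk⟩ := Subgroup.mem_zpowers_iff.mp h
  rcases Int.even_or_odd' k with ⟨j, hj | hj⟩
  · rw [hj, zpow_mul] at hk
    have : (f a * f b) ^ (2:ℤ) = 1 := by exact_mod_cast h3
    rw [this, one_zpow] at hk
    exact ha hk.symm
  · rw [hj, zpow_add, zpow_mul] at hk
    have : (f a * f b) ^ (2:ℤ) = 1 := by exact_mod_cast h3
    rw [this, one_zpow, one_mul, zpow_one] at hk
    apply hb
    calc f b = (f a)⁻¹ * (f a * f b) := by group
      _ = (f a)⁻¹ * f a := by rw [hk]
      _ = 1 := inv_mul_cancel _

theorem card_eq (hI : IsInvGen f) (hab : ∀ i, i = a ∨ i = b) (ha : f a ≠ 1) (hb : f b ≠ 1) :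
    Nat.card W = 2 * orderOf (f a * f b) := by
  have sq := hI.sq
  set H := Subgroup.zpowers (f a * f b) with hH
  have hr : f a * f b ∈ H := Subgroup.mem_zpowers _
  have hconj : ∀ i, ∀ h ∈ H, f i * h * f i ∈ H := by
    intro i h hh
    have hi : (f i)⁻¹ = f i := inv_eq_of_mul_eq_one_left (sq i)
    obtain ⟨k, rfl⟩ := Subgroup.mem_zpowers_iff.mp hh
    have e : f i * (f a * f b) ^ k * f i = (f i * (f a * f b) * f i) ^ k := by
      have : f i * (f a * f b) ^ k * f i = f i * (f a * f b) ^ k * (f i)⁻¹ := by rw [hi]
      rw [this, ← conj_zpow, hi]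
    rw [e]
    apply H.zpow_mem
    have hinv : (f a * f b)⁻¹ = f b * f a := by
      rw [mul_inv_rev, inv_eq_of_mul_eq_one_left (sq a), inv_eq_of_mul_eq_one_left (sq b)]
    rcases hab i with rfl | rfl
    · have : f i * (f i * f b) * f i = f b * f i := by rw [← mul_assoc, sq, one_mul]
      rw [this, ← hinv]; exact H.inv_mem hr
    · have : f i * (f a * f i) * f i = f i * f a := by
        rw [mul_assoc, mul_assoc, sq, mul_one]
      rw [this, ← hinv]; exact H.inv_mem hr
  have hfa : ∀ i, f i * f a ∈ H := by
    intro i
    rcases hab i with rfl | rfl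
    · rw [sq]; exact H.one_mem
    · have hinv : (f a * f i)⁻¹ = f i * f a := by
        rw [mul_inv_rev, inv_eq_of_mul_eq_one_left (sq a), inv_eq_of_mul_eq_one_left (sq i)]
      rw [← hinv]; exact H.inv_mem hr
  have hidx : H.index = 2 := by
    rw [Subgroup.index_eq_two_iff]
    refine ⟨f a, fun w => ?_⟩
    have hor : w * f a ∈ H ∨ w ∈ H := by
      obtain ⟨l, rfl⟩ := hI.gen w
      induction l with
      | nil => right; rw [wp_nil]; exact H.one_mem
      | cons i l ih =>
        rw [wp_cons]
        rcases ih with h | h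
        · right
          have : f i * wp f l = (f i * (wp f l * f a) * f i) * (f i * f a) := by
            calc f i * wp f l = f i * wp f l * (f a * f a) := by rw [sq, mul_one]
              _ = f i * (wp f l * f a) * f a := by simp only [mul_assoc]
              _ = f i * (wp f l * f a) * (f i * f i) * f a := by rw [sq, mul_one]
              _ = _ := by simp only [mul_assoc]
          rw [this]
          exact H.mul_mem (hconj i _ h) (hfa i)
        · left
          have : f i * wp f l * f a = (f i * wp f l * f i) * (f i * f a) := by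
            calc f i * wp f l * f a = f i * wp f l * (f i * f i) * f a := by rw [sq, mul_one]
              _ = _ := by simp only [mul_assoc]
          rw [this]
          exact H.mul_mem (hconj i _ h) (hfa i)
    rcases hor with h | h
    · refine Or.inl ⟨h, fun h' => ?_⟩
      exact not_mem_zpowers sq ha hb ((H.mul_mem_cancel_left h').mp h)
    · refine Or.inr ⟨h, fun h' => ?_⟩
      exact not_mem_zpowers sq ha hb ((H.mul_mem_cancel_left h).mp h')
  rw [← Subgroup.card_mul_index H, hidx, hH, Nat.card_zpowers, mul_comm]

theorem wp_alt_ab (n : ℕ) : wp f (alt (2 * n) a b) = (f a * f b) ^ n ∧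
    wp f (alt (2 * n + 1) a b) = (f a * f b) ^ n * f a := by
  induction n with
  | zero => simp [alt]
  | succ n ih =>
    constructor
    · have : alt (2 * (n+1)) a b = a :: b :: alt (2 * n) a b := rfl
      rw [this, wp_cons, wp_cons, ih.1, pow_succ', mul_assoc]
    · have : alt (2 * (n+1) + 1) a b = a :: b :: alt (2 * n + 1) a b := rfl
      rw [this, wp_cons, wp_cons, ih.2, pow_succ']
      simp only [mul_assoc]

theorem wp_alt_ab' (n : ℕ) : wp f (alt n a b) = (f a * f b) ^ ((n / 2 : ℕ) : ℤ) * (if Even n then 1 else f a) := by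
  rcases Nat.even_or_odd' n with ⟨j, rfl | rfl⟩
  · rw [(wp_alt_ab j).1, if_pos (by simp)]
    simp
  · rw [(wp_alt_ab j).2, if_neg (by simp)]
    have : (2 * j + 1) / 2 = j := by omega
    rw [this]; simp

theorem wp_alt_ba' (sq : ∀ i, f i * f i = 1) (n : ℕ) :
    wp f (alt n b a) = (f a * f b) ^ (-(((n+1) / 2 : ℕ) : ℤ)) * (if Even n then 1 else f a) := by
  have hinv : (f a * f b)⁻¹ = f b * f a := by
    rw [mul_inv_rev, inv_eq_of_mul_eq_one_left (sq a), inv_eq_of_mul_eq_one_left (sq b)]
  rcases Nat.even_or_odd' n with ⟨j, rfl | rfl⟩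
  · rw [(wp_alt_ab j).1, if_pos (by simp)]
    have : (2 * j + 1) / 2 = j := by omega
    rw [this, zpow_neg, ← inv_zpow, hinv]; simp
  · rw [(wp_alt_ab j).2, if_neg (by simp)]
    have : (2 * j + 1 + 1) / 2 = j + 1 := by omega
    rw [this, zpow_neg, ← inv_zpow, hinv, zpow_natCast, pow_succ]
    simp only [mul_assoc, sq, mul_one]

theorem red_alt (hI : IsInvGen f) (hab : ∀ i, i = a ∨ i = b) (l : List ι) (hl : Red f l) :
    l = alt l.length a b ∨ l = alt l.length b a := by
  induction l with
  | nil => left; rfl
  | cons i l ih =>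
    have h1 := ih (hl.tail hI)
    match l, hl, h1 with
    | [], _, _ =>
      rcases hab i with rfl | rfl
      · left; rfl
      · right; rfl
    | j :: l, hl, h1 =>
      have hij : i ≠ j := by
        rintro rfl
        unfold Red at hl
        rw [wp_cons, wp_cons, simple_mul_simple_mul hI] at hl
        have := len_le (f := f) l
        simp at hl
        omega
      simp only [List.length_cons] at h1 ⊢
      rcases h1 with h1 | h1
      · have hja : j = a := by
          have := congrArg List.head? h1
          simpa [alt] using this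
        have hib : i = b := by
          rcases hab i with h | h
          · exact absurd (h.trans hja.symm) hij
          · exact h
        right
        rw [h1, hib]; rfl
      · have hja : j = b := by
          have := congrArg List.head? h1
          simpa [alt] using this
        have hib : i = a := by
          rcases hab i with h | h
          · exact h
          · exact absurd (h.trans hja.symm) hij
        left
        rw [h1, hib]; rfl

theorem alt_red (hI : IsInvGen f) (hab : ∀ i, i = a ∨ i = b) (ha : f a ≠ 1) (hb : f b ≠ 1) (n : ℕ)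
    (hn : n ≤ orderOf (f a * f b)) : Red f (alt n a b) := by
  by_contra hred
  have hlt : len f (wp f (alt n a b)) < n := by
    have := len_le (f := f) (alt n a b)
    rw [length_alt] at this
    unfold Red at hred
    rw [length_alt] at hred
    omega
  obtain ⟨l, hl, hr⟩ := exists_red hI (wp f (alt n a b))
  have hk : l.length < n := by
    unfold Red at hr
    rw [hl] at hr
    omega
  have hnot := not_mem_zpowers hI.sq ha hb
  have key : ∀ (z z' : ℤ) (ε ε' : Prop) [Decidable ε] [Decidable ε'],
      (f a * f b) ^ z * (if ε then 1 else f a) = (f a * f b) ^ z' * (if ε' then 1 else f a) →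
      (ε ↔ ε') ∧ ((orderOf (f a * f b) : ℕ) : ℤ) ∣ z - z' := by
    intro z z' ε ε' _ _ h
    have hiff : (ε ↔ ε') := by
      by_contra hne
      apply hnot
      by_cases h1 : ε
      · by_cases h2 : ε'
        · exact absurd (iff_of_true h1 h2) hne
        · rw [if_pos h1, if_neg h2, mul_one] at h
          have : f a = ((f a * f b) ^ z')⁻¹ * (f a * f b) ^ z := by rw [h]; group
          have hmem := (Subgroup.zpowers (f a * f b)).mul_mem
            (Subgroup.inv_mem _ (Subgroup.zpow_mem _ (Subgroup.mem_zpowers (f a * f b)) z'))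
            (Subgroup.zpow_mem _ (Subgroup.mem_zpowers (f a * f b)) z)
          rw [← this] at hmem
          exact hmem
      · by_cases h2 : ε'
        · rw [if_neg h1, if_pos h2, mul_one] at h
          have : f a = ((f a * f b) ^ z)⁻¹ * (f a * f b) ^ z' := by rw [← h]; group
          have hmem := (Subgroup.zpowers (f a * f b)).mul_mem
            (Subgroup.inv_mem _ (Subgroup.zpow_mem _ (Subgroup.mem_zpowers (f a * f b)) z))
            (Subgroup.zpow_mem _ (Subgroup.mem_zpowers (f a * f b)) z')
          rw [← this] at hmem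
          exact hmem
        · exact absurd (iff_of_false h1 h2) hne
    refine ⟨hiff, ?_⟩
    have h2 : (f a * f b) ^ z = (f a * f b) ^ z' := by
      by_cases h1 : ε
      · rw [if_pos h1, if_pos (hiff.mp h1)] at h; simpa using h
      · rw [if_neg h1, if_neg (fun h' => h1 (hiff.mpr h'))] at h; exact mul_right_cancel h
    rw [orderOf_dvd_iff_zpow_eq_one, zpow_sub, h2, mul_inv_cancel]
  rcases red_alt hI hab l hr with h | h
  · rw [h, wp_alt_ab', wp_alt_ab'] at hl
    obtain ⟨h1, h2⟩ := key _ _ _ _ hl
    rw [Nat.even_iff, Nat.even_iff] at h1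
    set m := orderOf (f a * f b)
    have h3 : m ∣ n / 2 - l.length / 2 := by
      have h4 : ((l.length / 2 : ℕ) : ℤ) - ((n / 2 : ℕ) : ℤ) = -(((n / 2 - l.length / 2 : ℕ)) : ℤ) := by
        rw [Nat.cast_sub (by omega)]; ring
      rw [h4, Int.dvd_neg] at h2
      exact_mod_cast h2
    have h5 := Nat.le_of_dvd (by omega) h3
    omega
  · rw [h, wp_alt_ba' hI.sq, wp_alt_ab'] at hl
    obtain ⟨h1, h2⟩ := key _ _ _ _ hl
    rw [Nat.even_iff, Nat.even_iff] at h1
    set m := orderOf (f a * f b)
    have h3 : m ∣ n / 2 + (l.length + 1) / 2 := by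
      have h4 : -(((l.length + 1) / 2 : ℕ) : ℤ) - ((n / 2 : ℕ) : ℤ) = -(((n / 2 + (l.length + 1) / 2 : ℕ)) : ℤ) := by
        push_cast; ring
      rw [h4, Int.dvd_neg] at h2
      exact_mod_cast h2
    have h5 := Nat.le_of_dvd (by omega) h3
    omega

end H24.Dihed
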