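import Mathlib

/-! Identities in the (real) Hecke algebra of a dihedral group: `S² = s + (s-1) S`, `T² = t + (t-1) T` (helper24). -/

set_option autoImplicit false

namespace H24.FHAlg

variable {A : Type*} [Ring A] [Algebra ℝ A] (s t : ℝ) (S T : A)

/-- the central element `Z = ST + TS - (s-1)T - (t-1)S + (s-1)(t-1)`. -/
def Zel : A := S * T + T * S - (s - 1) • T - (t - 1) • S + ((s - 1) * (t - 1)) • (1 : A)

variable {s t S T}

theorem assoc_sq {s : ℝ} {S : A} (hS : S * S = s • (1 : A) + (s - 1) • S) (x : A) :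
    S * (S * x) = s • x + (s - 1) • (S * x) := by
  rw [← mul_assoc, hS, add_mul, smul_mul_assoc, smul_mul_assoc, one_mul]

theorem Z_comm_S (hS : S * S = s • (1 : A) + (s - 1) • S) : S * Zel s t S T = Zel s t S T * S := by
  have hS' := assoc_sq hS
  unfold Zel
  simp only [mul_add, add_mul, mul_sub, sub_mul, mul_assoc, mul_smul_comm, smul_mul_assoc, mul_one, one_mul,
    hS, hS']
  module

theorem Z_symm : Zel s t S T = Zel t s T S := by
  unfold Zel
  module

theorem Z_comm_T (hT : T * T = t • (1 : A) + (t - 1) • T) : T * Zel s t S T = Zel s t S T * T := by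
  rw [Z_symm]; exact Z_comm_S hT

theorem R_sq (hS : S * S = s • (1 : A) + (s - 1) • S) (hT : T * T = t • (1 : A) + (t - 1) • T) :
    (S * T) * (S * T) = Zel s t S T * (S * T) - (s * t) • (1 : A) := by
  have hS' := assoc_sq hS
  have hT' := assoc_sq hT
  unfold Zel
  simp only [mul_add, add_mul, mul_sub, sub_mul, mul_assoc, mul_smul_comm, smul_mul_assoc, mul_one, one_mul,
    hS, hS', hT, hT', smul_add, smul_sub]
  module

theorem c_sq (hS : S * S = s • (1 : A) + (s - 1) • S) (hT : T * T = t • (1 : A) + (t - 1) • T) :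
    (S * T - T * S) * (S * T - T * S) =
      (Zel s t S T - (s * t + 1) • (1 : A)) * (Zel s t S T + (s + t) • (1 : A)) := by
  have hS' := assoc_sq hS
  have hT' := assoc_sq hT
  unfold Zel
  simp only [mul_add, add_mul, mul_sub, sub_mul, mul_assoc, mul_smul_comm, smul_mul_assoc, mul_one, one_mul,
    hS, hS', hT, hT', smul_add, smul_sub]
  module

theorem c_anti (hS : S * S = s • (1 : A) + (s - 1) • S) :
    (S * T - T * S) * S + S * (S * T - T * S) = (s - 1) • (S * T - T * S) := by
  have hS' := assoc_sq hS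
  simp only [mul_add, add_mul, mul_sub, sub_mul, mul_assoc, mul_smul_comm, smul_mul_assoc, mul_one, one_mul,
    hS, hS', smul_add, smul_sub]
  module

theorem odd_rel (hS : S * S = s • (1 : A) + (s - 1) • S) (hT : T * T = s • (1 : A) + (s - 1) • T) :
    S * T * S - T * S * T = (Zel s s S T + s • (1 : A)) * (S - T) := by
  have hS' := assoc_sq hS
  have hT' := assoc_sq hT
  unfold Zel
  simp only [mul_add, add_mul, mul_sub, sub_mul, mul_assoc, mul_smul_comm, smul_mul_assoc, mul_one, one_mul,
    hS, hS', hT, hT', smul_add, smul_sub]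
  module

theorem diff_sq (hS : S * S = s • (1 : A) + (s - 1) • S) (hT : T * T = s • (1 : A) + (s - 1) • T) :
    (S - T) * (S - T) = (s * s + 1) • (1 : A) - Zel s s S T := by
  unfold Zel
  simp only [mul_add, add_mul, mul_sub, sub_mul, mul_smul_comm, smul_mul_assoc, mul_one, one_mul,
    hS, hT, smul_add, smul_sub]
  module

end H24.FHAlg
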