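import Cfsg.Agent.Lib.H24.FHMain

/-! The Feit–Higman theorem, matrix form: conclusion (helper24). -/

set_option autoImplicit false

namespace H24.FHFinal

open H24.FHScal H24.FHMain

theorem angle {m j : ℕ} (hj : 0 < j) (hjm : 2 * j < m) {θ : ℝ} (hθ : θ = 2 * Real.pi * j / m) (r : ℝ) :
    ∃ w : ℂ, w ≠ 0 ∧ w ^ m = 1 ∧ w ^ 2 ≠ 1 ∧ ((2 * r * Real.cos θ : ℝ) : ℂ) = r * (w + w⁻¹) ∧ 0 < θ ∧ θ < Real.pi := by
  have hm : (0:ℝ) < m := by exact_mod_cast (show 0 < m by omega)
  have hjr : (0:ℝ) < j := by exact_mod_cast hj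
  have hjm' : (2:ℝ) * j < m := by exact_mod_cast hjm
  have hpi := Real.pi_pos
  have h0 : 0 < θ := by rw [hθ]; positivity
  have h1 : θ < Real.pi := by
    rw [hθ, div_lt_iff₀ hm]; nlinarith
  have hinv : (Complex.exp (θ * Complex.I))⁻¹ = Complex.exp (-(θ * Complex.I)) := (Complex.exp_neg _).symm
  refine ⟨Complex.exp (θ * Complex.I), Complex.exp_ne_zero _, ?_, ?_, ?_, h0, h1⟩
  · rw [← Complex.exp_nat_mul, hθ]
    have : (m : ℂ) * (((2 * Real.pi * j / m : ℝ) : ℂ) * Complex.I) = j * (2 * Real.pi * Complex.I) := by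
      have hmC : (m : ℂ) ≠ 0 := by exact_mod_cast hm.ne'
      push_cast
      field_simp
    rw [this, Complex.exp_nat_mul, Complex.exp_two_pi_mul_I, one_pow]
  · intro h
    have hs : 0 < Real.sin θ := Real.sin_pos_of_pos_of_lt_pi h0 h1
    have e : Complex.exp (θ * Complex.I) = (Complex.exp (θ * Complex.I))⁻¹ := by
      apply eq_inv_of_mul_eq_one_left
      rw [← pow_two]; exact h
    rw [hinv] at e
    have e2 : Complex.sin θ = 0 := by
      unfold Complex.sin
      rw [neg_mul, ← e]; simp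
    have : ((Real.sin θ : ℝ) : ℂ) = 0 := by rw [Complex.ofReal_sin]; exact e2
    exact hs.ne' (by exact_mod_cast this)
  · rw [hinv]
    push_cast
    rw [Complex.cos]
    ring_nf

theorem concl_eq {m : ℕ} {s : ℚ} {r : ℝ} {Y : Finset ℝ} {u : ℕ → ℝ → ℝ} {N : ℝ} (D : RData m s s r Y u N) :
    m = 3 ∨ m = 4 ∨ m = 6 := by
  have hsR : (2:ℝ) ≤ s := by exact_mod_cast D.hs
  have hrs : r = (s:ℝ) := by
    have h1 := D.hrst
    have h2 := D.hr
    nlinarith
  subst hrs
  have hr1 : (s:ℝ)^2 ≠ 1 := by nlinarith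
  have hm3 := D.hm
  have hmR : (3:ℝ) ≤ m := by exact_mod_cast hm3
  obtain ⟨κ, hκ⟩ := formula_eq D.data hr1 (D.hneg rfl) (fun h => (D.hodd h).2)
  have hκ' : ∀ y ∈ Y, y ≠ (s:ℝ)^2 + 1 → y ≠ -((s:ℝ)+s) → m * u 0 y * ((s:ℝ)^2 + 1 - y) = κ * (2 * s - y) := by
    intro y hy h1 h2
    obtain ⟨w, hw0, hw⟩ := exists_w D.hr y
    obtain ⟨h3, h4⟩ := D.data.hv y hy h1 h2 w hw0 hw
    exact hκ w hw0 h3 h4 y hw h1 h2
  have hκ0 : κ ≠ 0 := by
    rintro rfl
    obtain ⟨y, hy, h1, h2⟩ := D.hex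
    have h3 := hκ' y hy h1 h2
    rw [zero_mul] at h3
    have h4 := (D.hne y).mp hy
    rcases mul_eq_zero.mp h3 with h5 | h5
    · rcases mul_eq_zero.mp h5 with h6 | h6
      · linarith
      · exact h4 h6
    · exact h1 (by linarith)
  -- rationality
  have hrat : ∀ y ∈ Y, ∃ q : ℚ, y = q := by
    intro y hy
    by_contra hcon
    push Not at hcon
    obtain ⟨y', h1, h2, h3, _⟩ := D.hconj y hy hcon
    have hy' : y' ∈ Y := by rw [D.hne, h3, ← D.hne]; exact hy
    have e1 := hκ' y hy (by have := hcon (s^2+1); push_cast at this; exact this)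
      (by have := hcon (-(s+s)); push_cast at this; exact this)
    have e2 := hκ' y' hy' (by have := h2 (s^2+1); push_cast at this; exact this)
      (by have := h2 (-(s+s)); push_cast at this; exact this)
    rw [h3] at e2
    have e3 : (m * u 0 y - κ) * (y' - y) = 0 := by linear_combination e1 - e2
    rcases mul_eq_zero.mp e3 with h | h
    · have h5 : m * u 0 y = κ := by linarith
      rw [h5] at e1
      have h6 := mul_left_cancel₀ hκ0 e1
      nlinarith
    · exact h1 (by linarith)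
  obtain ⟨w, hw0, hwm, hw2, hy, hθ0, hθ1⟩ := angle (m := m) (j := 1) (by norm_num) (by omega) rfl (s:ℝ)
  set θ : ℝ := 2 * Real.pi * (1:ℕ) / m with hθ
  have hsin : 0 < Real.sin θ := Real.sin_pos_of_pos_of_lt_pi hθ0 hθ1
  have hsc := Real.sin_sq_add_cos_sq θ
  have hcos1 : Real.cos θ < 1 := by nlinarith
  have hcos2 : -1 < Real.cos θ := by nlinarith
  have g1 : 2 * (s:ℝ) * Real.cos θ ≠ (s:ℝ)^2 + 1 := by nlinarith
  have g2 : 2 * (s:ℝ) * Real.cos θ ≠ -((s:ℝ)+s) := by nlinarith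
  have hform := hκ w hw0 hwm hw2 _ hy g1 g2
  have hmem : 2 * (s:ℝ) * Real.cos θ ∈ Y := by
    rw [D.hne]
    intro h0
    rw [h0, mul_zero, zero_mul] at hform
    rcases mul_eq_zero.mp hform.symm with h | h
    · exact hκ0 h
    · nlinarith
  obtain ⟨q, hq⟩ := hrat _ hmem
  have hcosq : ∃ q : ℚ, Real.cos θ = q := ⟨q / (2 * s), by
    push_cast; rw [← hq]; field_simp⟩
  have hniv := niven_angle_eq (θ := θ) ⟨2 / m, by rw [hθ]; push_cast; ring⟩ hcosq ⟨hθ0.le, hθ1.le⟩
  have hpi := Real.pi_pos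
  have hm0 : (m:ℝ) ≠ 0 := by linarith
  simp only [Set.mem_insert_iff, Set.mem_singleton_iff] at hniv
  rcases hniv with h | h | h | h | h
  · linarith
  · right; right
    rw [hθ] at h
    have : (m:ℝ) = 6 := by
      field_simp at h; push_cast at h; linarith
    exact_mod_cast this
  · right; left
    rw [hθ] at h
    have : (m:ℝ) = 4 := by
      field_simp at h; push_cast at h; linarith
    exact_mod_cast this
  · left
    rw [hθ] at h
    have : (m:ℝ) = 3 := by
      field_simp at h; push_cast at h; linarith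
    exact_mod_cast this
  · linarith

set_option maxHeartbeats 1000000 in
theorem concl_ne {m : ℕ} {s t : ℚ} {r : ℝ} {Y : Finset ℝ} {u : ℕ → ℝ → ℝ} {N : ℝ} (D : RData m s t r Y u N)
    (hst : s ≠ t) : m = 4 ∨ m = 6 ∨ m = 8 := by
  have hsR : (2:ℝ) ≤ s := by exact_mod_cast D.hs
  have htR : (2:ℝ) ≤ t := by exact_mod_cast D.ht
  have hstR : (s:ℝ) ≠ t := by exact_mod_cast hst
  have hrst := D.hrst
  have hr := D.hr
  have hr4 : 4 ≤ r^2 := by nlinarith
  have hr2 : 2 ≤ r := by nlinarith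
  have hr1 : r^2 ≠ 1 := by linarith
  have hm3 := D.hm
  have hmR : (3:ℝ) ≤ m := by exact_mod_cast hm3
  have hev : Even m := by
    rcases Nat.even_or_odd m with h | h
    · exact h
    · exact absurd (D.hodd h).1 hst
  have hst2 : 2 * r < s + t := by
    have h1 : 0 < ((s:ℝ) - t)^2 := by
      have := sub_ne_zero.mpr hstR
      positivity
    have h2 : (2 * r)^2 < ((s:ℝ)+t)^2 := by nlinarith
    nlinarith
  obtain ⟨κ, hκ⟩ := formula_ne D.data (by linarith) (by linarith) hstR hrst hr1 hev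
  have hκ0 : κ ≠ 0 := by
    rintro rfl
    obtain ⟨y, hy, h1, h2⟩ := D.hex
    obtain ⟨w, hw0, hw⟩ := exists_w D.hr y
    obtain ⟨h3, h4⟩ := D.data.hv y hy h1 h2 w hw0 hw
    have h3 := hκ w hw0 h3 h4 y hw h1 h2
    rw [zero_mul] at h3
    have h4 := (D.hne y).mp hy
    rcases mul_eq_zero.mp h3 with h5 | h5
    · rcases mul_eq_zero.mp h5 with h6 | h6
      · linarith
      · exact h4 h6
    · rcases mul_eq_zero.mp h5 with h6 | h6
      · exact h1 (by linarith)
      · exact h2 (by linarith)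
  -- the formula at `y` and `-y`
  have hirrat : ∀ y : ℝ, (∀ q : ℚ, y ≠ q) → y ≠ r^2 + 1 ∧ y ≠ -((s:ℝ)+t) := by
    intro y hy
    constructor
    · have := hy (s*t+1); push_cast at this; rw [hrst] at this; exact this
    · have := hy (-(s+t)); push_cast at this; exact this
  have hκ' : ∀ y ∈ Y, (∀ q : ℚ, y ≠ q) → m * u 0 y * ((r^2 + 1 - y) * (s + t + y)) = κ * (4 * r^2 - y^2) ∧
      m * u 0 (-y) * ((r^2 + 1 + y) * (s + t - y)) = κ * (4 * r^2 - y^2) := by
    intro y hy hirr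
    obtain ⟨h1, h2⟩ := hirrat y hirr
    obtain ⟨h1', h2'⟩ := hirrat (-y) (fun q h => hirr (-q) (by push_cast; linarith))
    obtain ⟨w, hw0, hw⟩ := exists_w D.hr y
    obtain ⟨h3, h4⟩ := D.data.hv y hy h1 h2 w hw0 hw
    refine ⟨hκ w hw0 h3 h4 y hw h1 h2, ?_⟩
    have := hκ (-w) (neg_ne_zero.mpr hw0) (by rw [hev.neg_pow, h3]) (by rwa [neg_sq]) (-y)
      (by push_cast; rw [hw, inv_neg]; ring) h1' h2'
    rw [neg_sq] at this
    rw [← this]; ring
  have hrat : ∀ y ∈ Y, ∃ q : ℚ, y = q := by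
    intro y hy
    by_contra hcon
    push Not at hcon
    obtain ⟨y', h1, h2, h3, h4⟩ := D.hconj y hy hcon
    have hy' : y' ∈ Y := by rw [D.hne, h3, ← D.hne]; exact hy
    obtain ⟨e1, e2⟩ := hκ' y hy hcon
    obtain ⟨e3, e4⟩ := hκ' y' hy' h2
    obtain ⟨n1, n2⟩ := hirrat y hcon
    rw [h3] at e3
    rw [h4] at e4
    have hM : m * u 0 y ≠ 0 := mul_ne_zero (by linarith) ((D.hne y).mp hy)
    have hP : (r^2 + 1 - y) * (s + t + y) ≠ 0 := by
      apply mul_ne_zero
      · intro h; exact n1 (by linarith)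
      · intro h; exact n2 (by linarith)
    have hN : 4 * r^2 - y^2 ≠ 0 := by
      intro h; rw [h, mul_zero] at e1
      exact (mul_ne_zero hM hP) e1
    have hM' : m * u 0 (-y) ≠ 0 := by
      intro h; rw [h, zero_mul] at e2
      exact (mul_ne_zero hκ0 hN) e2.symm
    set M := m * u 0 y
    set M' := m * u 0 (-y)
    have f1 : (r^2 + 1 - y) * (s + t + y) * (4 * r^2 - y'^2) = (r^2 + 1 - y') * (s + t + y') * (4 * r^2 - y^2) := by
      apply mul_left_cancel₀ (mul_ne_zero hM hκ0)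
      linear_combination κ * (4 * r^2 - y'^2) * e1 - κ * (4 * r^2 - y^2) * e3
    have f2 : (r^2 + 1 + y) * (s + t - y) * (4 * r^2 - y'^2) = (r^2 + 1 + y') * (s + t - y') * (4 * r^2 - y^2) := by
      apply mul_left_cancel₀ (mul_ne_zero hM' hκ0)
      linear_combination κ * (4 * r^2 - y'^2) * e2 - κ * (4 * r^2 - y^2) * e4
    have f3 : (4 * r^2 - (s + t) * (r^2 + 1)) * ((y - y') * (y + y')) = 0 := by
      linear_combination (-1/2 : ℝ) * (f1 + f2)
    have hne : (4 * r^2 - (s + t) * (r^2 + 1)) ≠ 0 := by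
      have : (r - 1)^2 > 0 := by nlinarith
      nlinarith
    have f4 : (y - y') * (y + y') = 0 := by
      rcases mul_eq_zero.mp f3 with h | h
      · exact absurd h hne
      · exact h
    have f5 : y' = -y := by
      rcases mul_eq_zero.mp f4 with h | h
      · exact absurd (by linarith) h1
      · linarith
    rw [f5] at f1
    have f6 : y * (4 * r^2 - y^2) * (r^2 + 1 - (s + t)) = 0 := by linear_combination f1 / 2
    have hne2 : r^2 + 1 - ((s:ℝ) + t) ≠ 0 := by
      rw [← hrst]; nlinarith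
    rcases mul_eq_zero.mp f6 with h | h
    · rcases mul_eq_zero.mp h with h | h
      · exact hcon 0 (by simpa using h)
      · exact hN h
    · exact hne2 h
  have hyj : ∀ j : ℕ, 0 < j → 2 * j < m → ∃ q : ℚ, 2 * r * Real.cos (2 * Real.pi * j / m) = q := by
    intro j hj hjm
    obtain ⟨w, hw0, hwm, hw2, hy, hθ0, hθ1⟩ := angle (m := m) (j := j) hj hjm rfl r
    set θ : ℝ := 2 * Real.pi * j / m with hθ
    have hsin : 0 < Real.sin θ := Real.sin_pos_of_pos_of_lt_pi hθ0 hθ1
    have hsc := Real.sin_sq_add_cos_sq θ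
    have hcos1 : Real.cos θ < 1 := by nlinarith
    have hcos2 : -1 < Real.cos θ := by nlinarith
    have g1 : 2 * r * Real.cos θ ≠ r^2 + 1 := by nlinarith
    have g2 : 2 * r * Real.cos θ ≠ -((s:ℝ)+t) := by nlinarith
    have hform := hκ w hw0 hwm hw2 _ hy g1 g2
    apply hrat
    rw [D.hne]
    intro h0
    rw [h0, mul_zero, zero_mul] at hform
    rcases mul_eq_zero.mp hform.symm with h | h
    · exact hκ0 h
    · have h1 : 4 * r^2 * (1 - Real.cos θ ^2) = 0 := by linear_combination h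
      have h2 : 0 < 1 - Real.cos θ^2 := by nlinarith
      have h3 : 0 < 4 * r^2 * (1 - Real.cos θ ^2) := by positivity
      linarith
  have hm4 : 4 ≤ m := by
    obtain ⟨l, hl⟩ := hev; omega
  have hm4R : (4:ℝ) ≤ m := by exact_mod_cast hm4
  obtain ⟨q, hq⟩ := hyj 1 (by norm_num) (by omega)
  have hpi := Real.pi_pos
  have hm0 : (m:ℝ) ≠ 0 := by linarith
  have hniv := niven_angle_eq (θ := 2 * (2 * Real.pi * (1:ℕ) / m)) ⟨4 / m, by push_cast; ring⟩
    ⟨q^2 / (2 * (s * t)) - 1, by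
      rw [Real.cos_two_mul]; push_cast; rw [hrst, ← hq]
      have : r ≠ 0 := hr.ne'
      push_cast
      field_simp⟩
    ⟨by positivity, by
      push_cast
      rw [mul_one, ← mul_div_assoc, div_le_iff₀ (by linarith)]
      nlinarith⟩
  simp only [Set.mem_insert_iff, Set.mem_singleton_iff] at hniv
  push_cast at hniv
  rcases hniv with h | h | h | h | h
  · exfalso
    have : 0 < 2 * (2 * Real.pi * 1 / (m:ℝ)) := by positivity
    linarith
  · exfalso
    have h12 : (m:ℝ) = 12 := by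
      field_simp at h; linarith
    have hm12 : m = 12 := by exact_mod_cast h12
    subst hm12
    obtain ⟨q2, hq2⟩ := hyj 2 (by norm_num) (by norm_num)
    have c1 : 2 * Real.pi * ((1:ℕ):ℝ) / ((12:ℕ):ℝ) = Real.pi / 6 := by push_cast; ring
    have c2 : 2 * Real.pi * ((2:ℕ):ℝ) / ((12:ℕ):ℝ) = Real.pi / 3 := by push_cast; ring
    rw [c1, Real.cos_pi_div_six] at hq
    rw [c2, Real.cos_pi_div_three] at hq2
    have hirr := (Nat.prime_three).irrational_sqrt
    apply hirr
    refine ⟨q / q2, ?_⟩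
    push_cast
    rw [← hq, ← hq2]
    have : r ≠ 0 := hr.ne'
    field_simp
  · right; right
    have : (m:ℝ) = 8 := by
      field_simp at h; linarith
    exact_mod_cast this
  · right; left
    have : (m:ℝ) = 6 := by
      field_simp at h; linarith
    exact_mod_cast this
  · left
    have : (m:ℝ) = 4 := by
      field_simp at h; linarith
    exact_mod_cast this

/-- **Feit–Higman**, matrix form. -/
theorem main {X : Type*} [Fintype X] [DecidableEq X] [Nonempty X] {m : ℕ} {s t : ℚ} {S T : Matrix X X ℚ}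
    (H : Hyp m s t S T) : m = 3 ∨ m = 4 ∨ m = 6 ∨ m = 8 := by
  obtain ⟨r, Y, u, N, D⟩ := rdata H
  by_cases hst : s = t
  · subst hst
    rcases concl_eq D with h | h | h <;> omega
  · rcases concl_ne D hst with h | h | h <;> omega

end H24.FHFinal
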