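import Cfsg.Agent.Lib.H7.TitsPar
import Cfsg.Agent.Lib.H7.Matsumoto
import Cfsg.Agent.Lib.H24.FHFinal
import Cfsg.Agent.Lib.H24.Dihed

/-! Feit–Higman for BN-pairs of rank two: the Hecke algebra acting on `G ⧸ B` (helper24). -/

set_option autoImplicit false

namespace H24.FHBN

open Cfsg H7.Tits H7.CoxComb H7.Matsumoto H7.TitsPar Matrix

variable {G : Type*} [Group G] {P : BNPair G}

/-- relative position `w` -/
def rel (w : W P) (x y : G ⧸ P.B) : Prop := x.out⁻¹ * y.out ∈ C P w

theorem rel_mk {w : W P} {g h : G} : rel w (QuotientGroup.mk g) (QuotientGroup.mk h) ↔ g⁻¹ * h ∈ C P w := by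
  obtain ⟨b, hb⟩ := QuotientGroup.mk_out_eq_mul P.B g
  obtain ⟨c, hc⟩ := QuotientGroup.mk_out_eq_mul P.B h
  unfold rel
  rw [hb, hc]
  have e : (g * (b:G))⁻¹ * (h * (c:G)) = (b:G)⁻¹ * (g⁻¹ * h) * c := by group
  rw [e]
  constructor
  · intro hh
    have := mul_mem_C_right (P.B.inv_mem c.2) (mul_mem_C_left b.2 hh)
    have e2 : (b:G) * ((b:G)⁻¹ * (g⁻¹ * h) * c) * (c:G)⁻¹ = g⁻¹ * h := by group
    rwa [e2] at this
  · intro hh
    exact mul_mem_C_right c.2 (mul_mem_C_left (P.B.inv_mem b.2) hh)

theorem rel_inv {w : W P} {x y : G ⧸ P.B} : rel w x y ↔ rel w⁻¹ y x := by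
  unfold rel
  constructor
  · intro h
    have := inv_mem_C h
    rwa [_root_.mul_inv_rev, inv_inv] at this
  · intro h
    have := inv_mem_C h
    rwa [_root_.mul_inv_rev, inv_inv, inv_inv] at this

theorem rel_one {x y : G ⧸ P.B} : rel 1 x y ↔ x = y := by
  obtain ⟨g, rfl⟩ := QuotientGroup.mk_surjective x
  obtain ⟨h, rfl⟩ := QuotientGroup.mk_surjective y
  rw [rel_mk, mem_C_one, QuotientGroup.eq]

theorem rel_unique {w w' : W P} {x y : G ⧸ P.B} (h : rel w x y) (h' : rel w' x y) : w = w' := eq_of_mem_C h h'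

theorem rel_smul {w : W P} (g : G) {x y : G ⧸ P.B} : rel w (g • x) (g • y) ↔ rel w x y := by
  obtain ⟨a, rfl⟩ := QuotientGroup.mk_surjective x
  obtain ⟨b, rfl⟩ := QuotientGroup.mk_surjective y
  rw [MulAction.Quotient.smul_mk, MulAction.Quotient.smul_mk, rel_mk, rel_mk]
  have : (g • a)⁻¹ * (g • b) = a⁻¹ * b := by simp [mul_assoc]
  rw [this]

theorem rel_mul {s : P.S} {w : W P} (hle : len (σ P) w ≤ len (σ P) (σ P s * w)) {x y z : G ⧸ P.B}
    (h1 : rel (σ P s) x z) (h2 : rel w z y) : rel (σ P s * w) x y := by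
  have := simple_mul_of_le _ rfl hle h1 h2
  unfold rel
  have e : x.out⁻¹ * z.out * (z.out⁻¹ * y.out) = x.out⁻¹ * y.out := by group
  rwa [e] at this

theorem rel_mul' {s : P.S} {w : W P} {x y z : G ⧸ P.B}
    (h1 : rel (σ P s) x z) (h2 : rel w z y) : rel (σ P s * w) x y ∨ rel w x y := by
  have := simple_mul h1 h2
  unfold rel
  have e : x.out⁻¹ * z.out * (z.out⁻¹ * y.out) = x.out⁻¹ * y.out := by group
  rwa [e] at this

theorem exists_rel {w w' : W P} {x y : G ⧸ P.B} (h : rel (w * w') x y) : ∃ z, rel w x z ∧ rel w' z y := by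
  obtain ⟨g, rfl⟩ := QuotientGroup.mk_surjective x
  obtain ⟨h', rfl⟩ := QuotientGroup.mk_surjective y
  rw [rel_mk] at h
  obtain ⟨a, ha, b, hb, hab⟩ := exists_mul_of_mem_C_mul h
  refine ⟨QuotientGroup.mk (g * a), ?_, ?_⟩
  · rw [rel_mk]; simpa using ha
  · rw [rel_mk]
    have : (g * a)⁻¹ * h' = b := by
      rw [_root_.mul_inv_rev, mul_assoc, hab]; group
    rwa [this]

variable [Fintype (G ⧸ P.B)] [DecidableEq (G ⧸ P.B)]

open Classical in
/-- the Hecke operator -/
noncomputable def A (w : W P) : Matrix (G ⧸ P.B) (G ⧸ P.B) ℚ := fun x y => if rel w x y then 1 else 0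

theorem A_mul {s : P.S} {w : W P} (hle : len (σ P) w ≤ len (σ P) (σ P s * w)) :
    A (σ P s) * A w = A (σ P s * w) := by
  classical
  ext x y
  rw [Matrix.mul_apply]
  unfold A
  by_cases h : rel (σ P s * w) x y
  · rw [if_pos h]
    obtain ⟨z, hz1, hz2⟩ := exists_rel h
    rw [Finset.sum_eq_single z]
    · rw [if_pos hz1, if_pos hz2, one_mul]
    · intro z' _ hne
      by_cases h1 : rel (σ P s) x z'
      · by_cases h2 : rel w z' y
        · exfalso
          have h3 : rel (σ P s) z' x := by
            have := rel_inv.mp h1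
            rwa [inv_eq_of_mul_eq_one_left (σ_sq P s)] at this
          rcases rel_mul' h3 hz1 with h4 | h4
          · rw [σ_sq] at h4
            exact hne (rel_one.mp h4)
          · have h5 := rel_mul hle h4 hz2
            have h6 := rel_unique h2 h5
            have : σ P s = 1 := by simpa using h6
            exact σ_ne_one s this
        · rw [if_neg h2, mul_zero]
      · rw [if_neg h1, zero_mul]
    · intro h; exact absurd (Finset.mem_univ z) h
  · rw [if_neg h]
    apply Finset.sum_eq_zero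
    intro z _
    by_cases h1 : rel (σ P s) x z
    · by_cases h2 : rel w z y
      · exact absurd (rel_mul hle h1 h2) h
      · rw [if_neg h2, mul_zero]
    · rw [if_neg h1, zero_mul]

theorem A_one : A (1 : W P) = 1 := by
  classical
  ext x y
  unfold A
  by_cases h : x = y
  · subst h; rw [if_pos (rel_one.mpr rfl), Matrix.one_apply_eq]
  · rw [if_neg (fun h' => h (rel_one.mp h')), Matrix.one_apply_ne h]

theorem A_transpose (w : W P) : (A w)ᵀ = A w⁻¹ := by
  classical
  ext x y
  rw [Matrix.transpose_apply]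
  unfold A
  simp only [rel_inv (w := w) (x := y) (y := x)]

theorem trace_A {w : W P} (hw : w ≠ 1) : (A w).trace = 0 := by
  classical
  rw [Matrix.trace]
  apply Finset.sum_eq_zero
  intro x _
  rw [Matrix.diag_apply]
  unfold A
  rw [if_neg]
  intro h
  exact hw (rel_unique h (rel_one.mpr rfl))

theorem trace_A_mul {w w' : W P} (hw : w' ≠ w⁻¹) : (A w * A w').trace = 0 := by
  classical
  rw [Matrix.trace]
  apply Finset.sum_eq_zero
  intro x _
  rw [Matrix.diag_apply, Matrix.mul_apply]
  apply Finset.sum_eq_zero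
  intro y _
  unfold A
  by_cases h1 : rel w x y
  · by_cases h2 : rel w' y x
    · exact absurd (rel_unique h2 (rel_inv.mp h1)) hw
    · rw [if_neg h2, mul_zero]
  · rw [if_neg h1, zero_mul]

/-- the product of the Hecke operators along a word -/
noncomputable def prodA (l : List P.S) : Matrix (G ⧸ P.B) (G ⧸ P.B) ℚ := (l.map (fun s => A (σ P s))).prod

theorem prodA_red (l : List P.S) (hl : Red (σ P) l) : prodA l = A (wp (σ P) l) := by
  induction l with
  | nil => simp [prodA, A_one]
  | cons s l ih =>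
    have h := isInvGen P
    have h1 := hl.tail h
    have h2 : prodA (s :: l) = A (σ P s) * prodA l := by simp [prodA]
    rw [h2, ih h1, wp_cons]
    apply A_mul
    unfold Red at hl h1
    rw [wp_cons] at hl
    rw [hl, h1]; simp

theorem prodA_append (l l' : List P.S) : prodA (l ++ l') = prodA l * prodA l' := by
  simp [prodA]

open Classical in
/-- number of chambers in an `s`-panel. -/
noncomputable def nn (s : P.S) : ℕ :=
  (Finset.univ.filter (fun z : G ⧸ P.B => rel (σ P s) (QuotientGroup.mk 1) z ∨ (QuotientGroup.mk 1) = z)).card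

theorem nn_eq (s : P.S) (x : G ⧸ P.B) [DecidablePred (fun z : G ⧸ P.B => rel (σ P s) x z ∨ x = z)] :
    (Finset.univ.filter (fun z : G ⧸ P.B => rel (σ P s) x z ∨ x = z)).card = nn s := by
  classical
  obtain ⟨g, rfl⟩ := QuotientGroup.mk_surjective x
  unfold nn
  symm
  apply Finset.card_bij (fun z _ => g • z)
  · intro z hz
    rw [Finset.mem_filter] at hz ⊢
    refine ⟨Finset.mem_univ _, ?_⟩
    have e : (QuotientGroup.mk g : G ⧸ P.B) = g • (QuotientGroup.mk 1 : G ⧸ P.B) := by
      rw [MulAction.Quotient.smul_mk, smul_eq_mul, mul_one]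
    rw [e, rel_smul]
    rcases hz.2 with h | h
    · exact Or.inl h
    · exact Or.inr (by rw [h])
  · intro z1 _ z2 _ h
    exact smul_left_cancel g h
  · intro z hz
    refine ⟨g⁻¹ • z, ?_, by simp⟩
    rw [Finset.mem_filter] at hz ⊢
    refine ⟨Finset.mem_univ _, ?_⟩
    have e : (QuotientGroup.mk 1 : G ⧸ P.B) = g⁻¹ • (QuotientGroup.mk g : G ⧸ P.B) := by
      rw [MulAction.Quotient.smul_mk, smul_eq_mul, inv_mul_cancel]
    rw [e, rel_smul]
    rcases hz.2 with h | h
    · exact Or.inl h
    · exact Or.inr (by rw [h])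

theorem nn_ge (s : P.S) : 3 ≤ nn s := by
  classical
  unfold nn
  -- three cosets: 1, and two in `C s`
  have hs : (s : G) ∈ C P (σ P s) := mem_C_self ⟨(s : G), P.subset s.2⟩
  obtain ⟨x, hx, y, hy, hxy⟩ := mem_C_simple_mul_self s hs
  have hnb : ∀ g : G, g ∈ C P (σ P s) → g ∉ P.B := by
    intro g hg hb
    rw [← mem_C_one] at hb
    exact σ_ne_one s (eq_of_mem_C hg hb)
  have hsub : ({QuotientGroup.mk 1, QuotientGroup.mk (s:G), QuotientGroup.mk x} : Finset (G ⧸ P.B)) ⊆
      Finset.univ.filter (fun z : G ⧸ P.B => rel (σ P s) (QuotientGroup.mk 1) z ∨ (QuotientGroup.mk 1) = z) := by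
    intro z hz
    simp only [Finset.mem_insert, Finset.mem_singleton] at hz
    rw [Finset.mem_filter]
    refine ⟨Finset.mem_univ _, ?_⟩
    rcases hz with rfl | rfl | rfl
    · right; rfl
    · left; rw [rel_mk]; simpa using hs
    · left; rw [rel_mk]; simpa using hx
  have h1 : (QuotientGroup.mk 1 : G ⧸ P.B) ≠ QuotientGroup.mk (s : G) := by
    intro h; rw [QuotientGroup.eq] at h
    exact hnb _ hs (by simpa using h)
  have h2 : (QuotientGroup.mk 1 : G ⧸ P.B) ≠ QuotientGroup.mk x := by
    intro h; rw [QuotientGroup.eq] at h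
    exact hnb _ hx (by simpa using h)
  have h3 : (QuotientGroup.mk (s : G) : G ⧸ P.B) ≠ QuotientGroup.mk x := by
    intro h
    have h' := h.symm
    rw [QuotientGroup.eq, hxy] at h'
    exact hnb _ hy (by simpa using h')
  calc 3 = ({QuotientGroup.mk 1, QuotientGroup.mk (s:G), QuotientGroup.mk x} : Finset (G ⧸ P.B)).card := by
        rw [Finset.card_eq_three.mpr ⟨_, _, _, h1, h2, h3, rfl⟩]
    _ ≤ _ := Finset.card_le_card hsub

theorem rel_trans' {s : P.S} {x y z : G ⧸ P.B} (h1 : rel (σ P s) x z ∨ x = z) (h2 : rel (σ P s) z y ∨ z = y) :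
    rel (σ P s) x y ∨ x = y := by
  rcases h1 with h1 | rfl
  · rcases h2 with h2 | rfl
    · rcases rel_mul' h1 h2 with h | h
      · rw [σ_sq] at h; exact Or.inr (rel_one.mp h)
      · exact Or.inl h
    · exact Or.inl h1
  · exact h2

theorem rel_symm' {s : P.S} {x y : G ⧸ P.B} (h1 : rel (σ P s) x y ∨ x = y) : rel (σ P s) y x ∨ y = x := by
  rcases h1 with h1 | rfl
  · left
    have := rel_inv.mp h1
    rwa [inv_eq_of_mul_eq_one_left (σ_sq P s)] at this
  · exact Or.inr rfl

theorem J_sq (s : P.S) : (A (σ P s) + 1) * (A (σ P s) + 1) = (nn s : ℚ) • (A (σ P s) + 1) := by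
  classical
  have hJ : ∀ x y, (A (σ P s) + 1) x y = if rel (σ P s) x y ∨ x = y then 1 else 0 := by
    intro x y
    rw [Matrix.add_apply]
    unfold A
    by_cases h : x = y
    · subst h
      have : ¬ rel (σ P s) x x := fun h' => σ_ne_one s (rel_unique h' (rel_one.mpr rfl))
      simp [this]
    · simp [h]
  ext x y
  rw [Matrix.mul_apply, Matrix.smul_apply, hJ x y]
  simp only [hJ]
  by_cases h : rel (σ P s) x y ∨ x = y
  · rw [if_pos h]
    have : ∀ z, (if rel (σ P s) x z ∨ x = z then (1:ℚ) else 0) * (if rel (σ P s) z y ∨ z = y then 1 else 0)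
        = if rel (σ P s) x z ∨ x = z then 1 else 0 := by
      intro z
      by_cases h1 : rel (σ P s) x z ∨ x = z
      · rw [if_pos h1, if_pos (rel_trans' (rel_symm' h1) h), one_mul]
      · rw [if_neg h1, zero_mul]
    simp only [this]
    rw [Finset.sum_boole, nn_eq s x]
    simp
  · rw [if_neg h, smul_zero]
    apply Finset.sum_eq_zero
    intro z _
    by_cases h1 : rel (σ P s) x z ∨ x = z
    · by_cases h2 : rel (σ P s) z y ∨ z = y
      · exact absurd (rel_trans' h1 h2) h
      · rw [if_neg h2, mul_zero]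
    · rw [if_neg h1, zero_mul]

theorem quad (s : P.S) : A (σ P s) * A (σ P s) = ((nn s : ℚ) - 1) • (1 : Matrix (G ⧸ P.B) (G ⧸ P.B) ℚ) +
    ((nn s : ℚ) - 1 - 1) • A (σ P s) := by
  have := J_sq s
  have e : (A (σ P s) + 1) * (A (σ P s) + 1) = A (σ P s) * A (σ P s) + (A (σ P s) + A (σ P s) + 1) := by noncomm_ring
  rw [e] at this
  rw [eq_sub_of_add_eq this]
  module

/-- row sums -/
theorem A_mulVec (s : P.S) : A (σ P s) *ᵥ (fun _ => (1:ℚ)) = ((nn s : ℚ) - 1) • (fun _ => (1:ℚ)) := by
  classical
  funext x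
  simp only [Matrix.mulVec, dotProduct, mul_one, Pi.smul_apply, smul_eq_mul]
  have h1 := nn_eq s x
  have h2 : ((Finset.univ.filter (fun z : G ⧸ P.B => rel (σ P s) x z ∨ x = z)).card : ℚ)
      = ∑ z, (if rel (σ P s) x z then (1:ℚ) else 0) + 1 := by
    rw [← Finset.sum_boole]
    have : ∀ z, (if rel (σ P s) x z ∨ x = z then (1:ℚ) else 0) = (if rel (σ P s) x z then (1:ℚ) else 0) + (if x = z then 1 else 0) := by
      intro z
      by_cases h : x = z
      · subst h
        have : ¬ rel (σ P s) x x := fun h' => σ_ne_one s (rel_unique h' (rel_one.mpr rfl))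
        simp [this]
      · simp [h]
    simp only [this]
    rw [Finset.sum_add_distrib]
    simp
  unfold A
  rw [h1] at h2
  linarith

theorem prodA_mulVec (l : List P.S) : prodA l *ᵥ (fun _ => (1:ℚ)) =
    ((l.map (fun s => (nn s : ℚ) - 1)).prod) • (fun _ => (1:ℚ)) := by
  induction l with
  | nil => simp [prodA]
  | cons s l ih =>
    have h2 : prodA (s :: l) = A (σ P s) * prodA l := by simp [prodA]
    rw [h2, ← Matrix.mulVec_mulVec, ih, Matrix.mulVec_smul, A_mulVec, smul_smul]
    simp [mul_comm]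

theorem drop_alt {ι : Type*} (n k : ℕ) : ∀ i j : ι, (alt (n + k) i j).drop n = alt k i j ∨ (alt (n + k) i j).drop n = alt k j i := by
  induction n with
  | zero => intro i j; left; simp
  | succ n ih =>
    intro i j
    have : alt (n + 1 + k) i j = i :: alt (n + k) j i := by
      have : n + 1 + k = (n + k) + 1 := by omega
      rw [this]; rfl
    rw [this, List.drop_succ_cons]
    exact (ih j i).symm

theorem prodA_alt (a b : P.S) (k : ℕ) : prodA (alt (2 * k) a b) = (A (σ P a) * A (σ P b)) ^ k ∧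
    prodA (alt (2 * k + 1) a b) = (A (σ P a) * A (σ P b)) ^ k * A (σ P a) := by
  induction k with
  | zero => simp [alt, prodA]
  | succ k ih =>
    constructor
    · have : alt (2 * (k+1)) a b = a :: b :: alt (2 * k) a b := rfl
      rw [this, pow_succ', ← ih.1]
      simp [prodA, mul_assoc]
    · have : alt (2 * (k+1) + 1) a b = a :: b :: alt (2 * k + 1) a b := rfl
      rw [this, pow_succ', mul_assoc, ← ih.2]
      simp [prodA, mul_assoc]

theorem feit_higman [Finite (W P)] (h2 : P.rank = 2) : Nat.card (W P) ∈ ({4, 6, 8, 12, 16} : Set ℕ) := by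
  classical
  have hI := isInvGen P
  unfold BNPair.rank at h2
  rw [Nat.card_eq_two_iff] at h2
  obtain ⟨a, b, hab, huniv⟩ := h2
  have hab' : ∀ i : P.S, i = a ∨ i = b := by
    intro i
    have : i ∈ ({a, b} : Set P.S) := by rw [huniv]; trivial
    simpa using this
  have ha := σ_ne_one a
  have hb := σ_ne_one b
  have hcard := Dihed.card_eq hI hab' ha hb
  set m := orderOf (σ P a * σ P b) with hm
  have hm0 : 0 < m := orderOf_pos _
  have hm1 : m ≠ 1 := by
    intro h
    rw [hm, orderOf_eq_one_iff] at h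
    apply hab
    apply σ_inj P
    have := eq_inv_of_mul_eq_one_left h
    rwa [inv_eq_of_mul_eq_one_left (σ_sq P b)] at this
  have hmba : orderOf (σ P b * σ P a) = m := by
    rw [hm, ← orderOf_inv, _root_.mul_inv_rev, inv_eq_of_mul_eq_one_left (σ_sq P a), inv_eq_of_mul_eq_one_left (σ_sq P b)]
  have hba' : ∀ i : P.S, i = b ∨ i = a := fun i => (hab' i).symm
  have hredab : ∀ n ≤ m, Red (σ P) (alt n a b) := fun n hn => Dihed.alt_red hI hab' ha hb n hn
  have hredba : ∀ n ≤ m, Red (σ P) (alt n b a) := fun n hn => Dihed.alt_red hI hba' hb ha n (by rw [hmba]; exact hn)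
  have hpow : (σ P a * σ P b) ^ m = 1 := pow_orderOf_eq_one _
  have hbraid : prodA (alt m a b) = prodA (alt m b a) := by
    rw [prodA_red _ (hredab m le_rfl), prodA_red _ (hredba m le_rfl), braid_of_pow (σ P) (σ_sq P) hpow]
  have hinv : ∀ s : P.S, (σ P s)⁻¹ = σ P s := fun s => inv_eq_of_mul_eq_one_left (σ_sq P s)
  rcases Nat.lt_or_ge m 3 with hlt | hge
  · have : m = 2 := by omega
    rw [hcard, this]; simp
  · haveI : Nonempty (G ⧸ P.B) := ⟨QuotientGroup.mk 1⟩
    have hodd : ∀ l, m = 2 * l + 1 → ((nn a : ℚ) - 1) = (nn b : ℚ) - 1 := by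
      intro l hl
      have e := congrArg (fun M => M *ᵥ (fun _ : G ⧸ P.B => (1:ℚ))) hbraid
      rw [prodA_mulVec, prodA_mulVec, hl] at e
      have e1 := congrFun e (QuotientGroup.mk 1)
      simp only [Pi.smul_apply, smul_eq_mul, mul_one] at e1
      have key : ∀ (c d : P.S) (l : ℕ), ((alt (2 * l + 1) c d).map (fun s => (nn s : ℚ) - 1)).prod =
          (((nn c : ℚ) - 1) * ((nn d : ℚ) - 1)) ^ l * ((nn c : ℚ) - 1) := by
        intro c d l
        induction l with
        | zero => simp [alt]
        | succ l ih =>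
          have : alt (2 * (l+1) + 1) c d = c :: d :: alt (2 * l + 1) c d := rfl
          rw [this, List.map_cons, List.map_cons, List.prod_cons, List.prod_cons, ih, pow_succ]
          ring
      rw [key, key, mul_comm ((nn b : ℚ) - 1) ((nn a : ℚ) - 1)] at e1
      have h3 : (3:ℚ) ≤ nn a := by exact_mod_cast nn_ge a
      have h4 : (3:ℚ) ≤ nn b := by exact_mod_cast nn_ge b
      have h5 : (((nn a : ℚ) - 1) * ((nn b : ℚ) - 1)) ^ l ≠ 0 := by
        apply pow_ne_zero
        apply mul_ne_zero <;> linarith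
      exact mul_left_cancel₀ h5 e1
    have H : FHMain.Hyp m ((nn a : ℚ) - 1) ((nn b : ℚ) - 1) (A (σ P a)) (A (σ P b)) := by
      refine ⟨hge, ?_, ?_, quad a, quad b, ?_, ?_, ?_, ?_, ?_⟩
      · have : (3:ℚ) ≤ nn a := by exact_mod_cast nn_ge a
        linarith
      · have : (3:ℚ) ≤ nn b := by exact_mod_cast nn_ge b
        linarith
      · rw [A_transpose, hinv]
      · rw [A_transpose, hinv]
      · intro k hk1 hk2
        rw [← (prodA_alt a b k).1]
        rcases Nat.lt_or_ge m (2 * k) with hlt | hle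
        · obtain ⟨j, hj⟩ : ∃ j, 2 * k = m + j := ⟨2 * k - m, by omega⟩
          rw [← List.take_append_drop m (alt (2 * k) a b), prodA_append, take_alt (2 * k) m (by omega)]
          have hdrop : (alt (2 * k) a b).drop m = alt j a b ∨ (alt (2 * k) a b).drop m = alt j b a := by
            rw [hj]; exact drop_alt m j a b
          have hjm : j < m := by omega
          obtain ⟨l', hl', hlen, hd⟩ : ∃ l', Red (σ P) l' ∧ l'.length = j ∧ (alt (2 * k) a b).drop m = l' := by
            rcases hdrop with h | h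
            · exact ⟨_, hredab j hjm.le, length_alt _ _ _, h⟩
            · exact ⟨_, hredba j hjm.le, length_alt _ _ _, h⟩
          rw [hd, prodA_red _ (hredab m le_rfl), prodA_red _ hl']
          apply trace_A_mul
          intro heq
          have h6 := congrArg (len (σ P)) heq
          rw [len_inv hI] at h6
          have h7 := hredab m le_rfl
          unfold Red at h7 hl'
          rw [h7, hl', length_alt] at h6
          omega
        · rw [prodA_red _ (hredab _ hle)]
          apply trace_A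
          intro heq
          have h7 := hredab _ hle
          unfold Red at h7
          rw [heq, len_one, length_alt] at h7
          omega
      · intro l hl
        rw [← (prodA_alt a b l).1, ← (prodA_alt b a l).1, ← hl]
        exact hbraid
      · intro l hl
        refine ⟨?_, hodd l hl⟩
        rw [← (prodA_alt a b l).2, ← (prodA_alt b a l).2, ← hl]
        exact hbraid
    rw [hcard]
    rcases FHFinal.main H with h | h | h | h <;> rw [h] <;> simp

end H24.FHBN
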