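import Cfsg.Agent.Lib.H24.FHMat

/-! The Feit–Higman theorem, matrix form (helper24). -/

set_option autoImplicit false

namespace H24.FHMain

open Matrix Polynomial H24.FHAlg H24.FHSpec H24.FHScal H24.FHMat

theorem exists_conj {X : Type*} [Fintype X] [DecidableEq X] {Z0 : Matrix X X ℚ} {Z : Matrix X X ℝ}
    (hZ0 : Z = Z0.map (algebraMap ℚ ℝ)) (hZ : Z.IsHermitian)
    {y : ℝ} (hy : y ∈ Finset.univ.image hZ.eigenvalues)
    (hirr : ∀ q : ℚ, y ≠ q) :
    ∃ y' : ℝ, y' ≠ y ∧ (∀ q : ℚ, y' ≠ q) ∧ (∀ p : ℚ[X], aeval y p = 0 → aeval y' p = 0) := by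
  have hχ : Z.charpoly = Z0.charpoly.map (algebraMap ℚ ℝ) := by rw [hZ0, Matrix.charpoly_map]
  have hroot : Z.charpoly.IsRoot y := by
    rw [← Polynomial.mem_roots (Matrix.charpoly_monic Z).ne_zero, hZ.roots_charpoly_eq_eigenvalues]
    rw [Finset.mem_image] at hy
    obtain ⟨i, _, hi⟩ := hy
    rw [Multiset.mem_map]
    exact ⟨i, Finset.mem_univ_val _, hi⟩
  have hae : aeval y Z0.charpoly = 0 := by
    rw [hχ, IsRoot.def, eval_map_algebraMap] at hroot
    exact hroot
  have hint : IsIntegral ℚ y := ⟨Z0.charpoly, Matrix.charpoly_monic _, by rwa [← aeval_def]⟩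
  have hdvd : minpoly ℚ y ∣ Z0.charpoly := minpoly.dvd _ _ hae
  have hspl : ((minpoly ℚ y).map (algebraMap ℚ ℝ)).Splits := by
    refine Splits.of_dvd (hZ.splits_charpoly) (Matrix.charpoly_monic Z).ne_zero ?_
    rw [hχ]
    exact Polynomial.map_dvd _ hdvd
  have hsep : (minpoly ℚ y).Separable := (minpoly.irreducible hint).separable
  have hnd : ((minpoly ℚ y).map (algebraMap ℚ ℝ)).roots.Nodup := nodup_roots hsep.map
  have hcard : ((minpoly ℚ y).map (algebraMap ℚ ℝ)).roots.card = (minpoly ℚ y).natDegree := by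
    rw [splits_iff_card_roots.mp hspl, natDegree_map]
  have hdeg : 2 ≤ (minpoly ℚ y).natDegree := by
    have h1 : 0 < (minpoly ℚ y).natDegree := minpoly.natDegree_pos hint
    rcases Nat.lt_or_ge (minpoly ℚ y).natDegree 2 with h | h
    · exfalso
      have h2 : (minpoly ℚ y).natDegree = 1 := by omega
      have h3 := minpoly.natDegree_eq_one_iff.mp h2
      obtain ⟨q, hq⟩ := h3
      exact hirr q (by rw [← hq]; rfl)
    · exact h
  have hfc : 2 ≤ ((minpoly ℚ y).map (algebraMap ℚ ℝ)).roots.toFinset.card := by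
    rw [Multiset.toFinset_card_of_nodup hnd, hcard]; exact hdeg
  obtain ⟨y', hy', hne⟩ := Finset.exists_mem_ne (lt_of_lt_of_le Nat.one_lt_two hfc) y
  rw [Multiset.mem_toFinset, mem_roots', IsRoot.def, eval_map_algebraMap] at hy'
  have hmin : minpoly ℚ y = minpoly ℚ y' :=
    minpoly.eq_of_irreducible_of_monic (minpoly.irreducible hint) hy'.2 (minpoly.monic hint)
  refine ⟨y', hne, ?_, ?_⟩
  · intro q hq
    have : minpoly ℚ y' = Polynomial.X - C q := by
      rw [hq]; exact minpoly.eq_X_sub_C ℝ q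
    rw [hmin, this, natDegree_X_sub_C] at hdeg
    omega
  · intro p hp
    have := minpoly.dvd ℚ y hp
    rw [hmin] at this
    obtain ⟨g, hg⟩ := this
    rw [hg, map_mul, minpoly.aeval, zero_mul]

/-- Hypotheses of the Feit–Higman theorem (two symmetric rational matrices generating a dihedral Hecke algebra). -/
structure Hyp {X : Type*} [Fintype X] [DecidableEq X] (m : ℕ) (s t : ℚ) (S T : Matrix X X ℚ) : Prop where
  hm : 3 ≤ m
  hs : 2 ≤ s
  ht : 2 ≤ t
  hS : S * S = s • (1 : Matrix X X ℚ) + (s - 1) • S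
  hT : T * T = t • (1 : Matrix X X ℚ) + (t - 1) • T
  hSs : Sᵀ = S
  hTs : Tᵀ = T
  htr : ∀ k, 1 ≤ k → k < m → ((S * T)^k).trace = 0
  heven : ∀ l, m = 2 * l → (S * T)^l = (T * S)^l
  hodd : ∀ l, m = 2 * l + 1 → (S * T)^l * S = (T * S)^l * T ∧ s = t

section
variable {X : Type*} [Fintype X] [DecidableEq X] {m : ℕ} {s t : ℚ} {S T : Matrix X X ℚ}

theorem map_smul' (q : ℚ) (M : Matrix X X ℚ) :
    (q • M).map (algebraMap ℚ ℝ) = (q : ℝ) • M.map (algebraMap ℚ ℝ) := by
  ext i j
  simp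

theorem map_one' : (1 : Matrix X X ℚ).map (algebraMap ℚ ℝ) = 1 := by
  rw [Matrix.map_one] <;> simp

theorem map_mul' (M N : Matrix X X ℚ) :
    (M * N).map (algebraMap ℚ ℝ) = M.map (algebraMap ℚ ℝ) * N.map (algebraMap ℚ ℝ) := Matrix.map_mul

theorem map_pow' (M : Matrix X X ℚ) (k : ℕ) :
    (M ^ k).map (algebraMap ℚ ℝ) = (M.map (algebraMap ℚ ℝ)) ^ k := by
  induction k with
  | zero => simp [map_one']
  | succ k ih => rw [pow_succ, pow_succ, map_mul', ih]

theorem map_add' (M N : Matrix X X ℚ) :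
    (M + N).map (algebraMap ℚ ℝ) = M.map (algebraMap ℚ ℝ) + N.map (algebraMap ℚ ℝ) := by
  ext; simp

theorem map_sub' (M N : Matrix X X ℚ) :
    (M - N).map (algebraMap ℚ ℝ) = M.map (algebraMap ℚ ℝ) - N.map (algebraMap ℚ ℝ) := by
  ext; simp

theorem trace_map' (M : Matrix X X ℚ) : (M.map (algebraMap ℚ ℝ)).trace = (M.trace : ℝ) := by
  simp [Matrix.trace]

/-- the real data extracted from the hypotheses. -/
structure RData (m : ℕ) (s t : ℚ) (r : ℝ) (Y : Finset ℝ) (u : ℕ → ℝ → ℝ) (N : ℝ) : Prop where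
  hm : 3 ≤ m
  hs : 2 ≤ s
  ht : 2 ≤ t
  hr : 0 < r
  hrst : (s : ℝ) * t = r ^ 2
  data : Data m r ((s:ℝ)+t) N Y u
  hne : ∀ y, y ∈ Y ↔ u 0 y ≠ 0
  hneg : s = t → u 1 (-((s:ℝ)+t)) = -s * u 0 (-((s:ℝ)+t))
  hodd : Odd m → s = t ∧ u 0 (-((s:ℝ)+t)) = 0
  hconj : ∀ y, y ∈ Y → (∀ q : ℚ, y ≠ q) → ∃ y' : ℝ, y' ≠ y ∧ (∀ q : ℚ, y' ≠ q) ∧ u 0 y' = u 0 y ∧ u 0 (-y') = u 0 (-y)
  hex : ∃ y ∈ Y, y ≠ r^2 + 1 ∧ y ≠ -((s:ℝ)+t)

theorem rdata [Nonempty X] (H : Hyp m s t S T) : ∃ r Y u N, RData m s t r Y u N := by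
  have hs2 := H.hs
  have ht2 := H.ht
  have hsR : (2:ℝ) ≤ s := by exact_mod_cast hs2
  have htR : (2:ℝ) ≤ t := by exact_mod_cast ht2
  have hpos : (0:ℝ) < (s:ℝ) * t := by positivity
  set r : ℝ := Real.sqrt ((s:ℝ) * t) with hrdef
  have hr : 0 < r := Real.sqrt_pos.mpr hpos
  have hrst : (s : ℝ) * t = r ^ 2 := (Real.sq_sqrt hpos.le).symm
  set SR : Matrix X X ℝ := S.map (algebraMap ℚ ℝ) with hSR
  set TR : Matrix X X ℝ := T.map (algebraMap ℚ ℝ) with hTR
  have hS : SR * SR = (s:ℝ) • (1 : Matrix X X ℝ) + ((s:ℝ) - 1) • SR := by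
    rw [hSR, ← map_mul', H.hS, map_add', map_smul', map_smul', map_one']
    push_cast; rfl
  have hT : TR * TR = (t:ℝ) • (1 : Matrix X X ℝ) + ((t:ℝ) - 1) • TR := by
    rw [hTR, ← map_mul', H.hT, map_add', map_smul', map_smul', map_one']
    push_cast; rfl
  have hSs : SRᵀ = SR := by rw [hSR, ← Matrix.transpose_map, H.hSs]
  have hTs : TRᵀ = TR := by rw [hTR, ← Matrix.transpose_map, H.hTs]
  set Z := Zel (s:ℝ) t SR TR with hZdef
  have hZ0 : Z = (S * T + T * S - (s - 1) • T - (t - 1) • S + ((s-1) * (t-1)) • (1 : Matrix X X ℚ)).map (algebraMap ℚ ℝ) := by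
    rw [map_add', map_sub', map_sub', map_add', map_mul', map_mul', map_smul', map_smul', map_smul', map_one', hZdef]
    unfold Zel
    push_cast; rfl
  have hZs : Zᵀ = Z := by
    rw [hZdef]; unfold Zel
    simp only [Matrix.transpose_add, Matrix.transpose_sub, Matrix.transpose_mul, Matrix.transpose_smul,
      Matrix.transpose_one, hSs, hTs]
    abel
  have hZ : Z.IsHermitian := by
    unfold Matrix.IsHermitian
    rw [Matrix.conjTranspose_eq_transpose_of_trivial]; exact hZs
  have hEig : ∀ y, Eig SR TR (E hZ y) s t y := fun y =>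
    ⟨hS, hT, comm_E hZ (Z_comm_S hS) y, comm_E hZ (Z_comm_T hT) y, mul_E hZ y⟩
  set Y := Finset.univ.image hZ.eigenvalues with hY
  set u : ℕ → ℝ → ℝ := fun k y => ((SR * TR) ^ k * E hZ y).trace with hu
  have hu0 : ∀ y, u 0 y = (Finset.univ.filter (fun i => hZ.eigenvalues i = y)).card := by
    intro y; rw [hu]; simp only [pow_zero, Matrix.one_mul]; exact trace_E hZ y
  have hmem : ∀ y, y ∈ Y ↔ u 0 y ≠ 0 := by
    intro y
    rw [hu0, hY, Finset.mem_image]
    constructor
    · rintro ⟨i, _, hi⟩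
      have : 0 < (Finset.univ.filter (fun i => hZ.eigenvalues i = y)).card :=
        Finset.card_pos.mpr ⟨i, by simp [hi]⟩
      exact_mod_cast this.ne'
    · intro h
      have h2 : (Finset.univ.filter (fun i => hZ.eigenvalues i = y)).card ≠ 0 := by exact_mod_cast h
      obtain ⟨i, hi⟩ := Finset.card_pos.mp (Nat.pos_of_ne_zero h2)
      exact ⟨i, Finset.mem_univ _, (Finset.mem_filter.mp hi).2⟩
  have hEne : ∀ y, y ∈ Y → E hZ y ≠ 0 := by
    intro y hy h0
    have := (hmem y).mp hy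
    apply this
    simp [hu, h0]
  have hE0 : ∀ y, y ∉ Y → E hZ y = 0 := by
    intro y hy
    unfold E
    have : (fun i => if hZ.eigenvalues i = y then (1:ℝ) else 0) = fun _ => 0 := by
      funext i
      rw [if_neg]
      intro hi
      exact hy (Finset.mem_image.mpr ⟨i, Finset.mem_univ _, hi⟩)
    rw [this]
    simp
  have hsumE : ∑ y ∈ Y, E hZ y = 1 := sum_E hZ
  have hconj : ∀ y y' : ℝ, (∀ p : ℚ[X], aeval y p = 0 → aeval y' p = 0) → IsIntegral ℚ y → u 0 y' = u 0 y := by
    intro y y' h hint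
    have e : ∀ y, u 0 y = (Z.charpoly.rootMultiplicity y : ℝ) := by
      intro y; rw [hu]; simp only [pow_zero, Matrix.one_mul]; exact trace_E_eq_rootMultiplicity hZ y
    rw [e, e]
    have hχ := congrArg Matrix.charpoly hZ0
    rw [Matrix.charpoly_map] at hχ
    rw [hχ]
    congr 1
    exact (rootMultiplicity_eq_of_minpoly (Matrix.charpoly_monic _).ne_zero hint (h _ (minpoly.aeval ℚ y))).symm
  have hrec : ∀ k y, u (k+2) y = y * u (k+1) y - r^2 * u k y := by
    intro k y
    have e : (SR * TR) ^ (k+2) * E hZ y = y • ((SR * TR) ^ (k+1) * E hZ y) - ((s:ℝ) * t) • ((SR * TR) ^ k * E hZ y) := by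
      rw [pow_add, pow_two, Matrix.mul_assoc, (hEig y).RRE, Matrix.mul_sub, Matrix.mul_smul, Matrix.mul_smul,
        pow_succ (SR * TR) k, Matrix.mul_assoc ((SR * TR) ^ k)]
    rw [hu]; simp only
    rw [e, Matrix.trace_sub, Matrix.trace_smul, Matrix.trace_smul, smul_eq_mul, smul_eq_mul, hrst]
  have htrR : ∀ k, 1 ≤ k → k < m → ((SR * TR) ^ k).trace = 0 := by
    intro k h1 h2
    rw [hSR, hTR, ← map_mul', ← map_pow', trace_map', H.htr k h1 h2]; simp
  have hevR : ∀ l, m = 2 * l → (SR * TR) ^ l = (TR * SR) ^ l := by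
    intro l hl
    rw [hSR, hTR, ← map_mul', ← map_pow', H.heven l hl, map_pow', map_mul']
  have hoddR : ∀ l, m = 2 * l + 1 → (SR * TR) ^ l * SR = (TR * SR) ^ l * TR := by
    intro l hl
    rw [hSR, hTR, ← map_mul', ← map_pow', ← map_mul', (H.hodd l hl).1, map_mul', map_pow', map_mul']
  have hm := H.hm
  refine ⟨r, Y, u, (Fintype.card X : ℝ), ⟨H.hm, hs2, ht2, hr, hrst, ⟨H.hm, hr, hrec, ?_, ?_, ?_, ?_⟩, hmem, ?_, ?_, ?_, ?_⟩⟩
  · intro y h1 h2
    have := (hEig y).trace_RE (by rw [hrst]; exact h1) h2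
    simpa [hu] using this
  · intro y hy h1 h2 v hv0 hv
    rw [← hrst] at h1
    rcases Nat.even_or_odd m with ⟨l, hl⟩ | ⟨l, hl⟩
    · have hl' : m = 2 * l := by omega
      rw [hl']
      have := (hEig y).even h1 h2 (hEne y hy) (l := l) (by omega) (hevR l hl')
      rw [hrst] at this
      exact gen_even hr (by omega) this hv0 hv
    · have hst : s = t := (H.hodd l hl).2
      have hrs : r = s := by
        rw [hrdef, hst, Real.sqrt_mul_self (by positivity)]
      rw [hl]
      have hE2 := hEig y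
      rw [← hst] at hE2 h1
      have := hE2.odd h1 (hEne y hy) (l := l) (by omega) (hoddR l hl)
      rw [← hrs, ← pow_two] at this
      exact gen_odd hr this hv0 hv
  · intro k hk
    have : ∑ y ∈ Y, u k y = ((SR * TR)^k).trace := by
      rw [hu]; simp only
      rw [← Matrix.trace_sum, ← Finset.mul_sum, hsumE, Matrix.mul_one]
    rw [this]
    split_ifs with h0
    · subst h0; simp
    · exact htrR k (by omega) hk
  · intro k y hy
    rw [hu]; simp only
    rw [hE0 y hy]; simp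
  · intro hst
    have hE2 := hEig (-((s:ℝ)+t))
    rw [← hst] at hE2 ⊢
    have := hE2.neg rfl hSs hTs (E_symm hZ _)
    rw [hu]; simp only [pow_one, pow_zero, Matrix.one_mul]
    rw [this]; simp
  · rintro ⟨l, hl⟩
    have hst : s = t := (H.hodd l hl).2
    refine ⟨hst, ?_⟩
    by_contra h0
    have hy := (hmem _).mpr h0
    have hrs : r = s := by
      rw [hrdef, hst, Real.sqrt_mul_self (by positivity)]
    have hE2 := hEig (-((s:ℝ)+t))
    rw [← hst] at hE2 hy
    have hE0' := hEne _ hy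
    have := hE2.odd (by intro h; nlinarith) hE0' (l := l) (by omega) (hoddR l hl)
    rw [← hrs, ← pow_two] at this
    have h3 := gen_odd hr this (w := -1) (by norm_num) (by push_cast; norm_num; ring)
    exact h3.2 (by norm_num)
  · intro y hy hirr
    obtain ⟨y', h1, h2, h3⟩ := exists_conj hZ0 hZ hy hirr
    have hint : IsIntegral ℚ y := by
      have hroot : Z.charpoly.IsRoot y := by
        rw [← Polynomial.mem_roots (Matrix.charpoly_monic Z).ne_zero, hZ.roots_charpoly_eq_eigenvalues]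
        rw [hY, Finset.mem_image] at hy
        obtain ⟨i, _, hi⟩ := hy
        rw [Multiset.mem_map]
        exact ⟨i, Finset.mem_univ_val _, hi⟩
      refine ⟨_, Matrix.charpoly_monic (S * T + T * S - (s - 1) • T - (t - 1) • S + ((s-1) * (t-1)) • (1 : Matrix X X ℚ)), ?_⟩
      have hχ := congrArg Matrix.charpoly hZ0
      rw [Matrix.charpoly_map] at hχ
      rw [hχ, IsRoot.def, eval_map] at hroot
      exact hroot
    refine ⟨y', h1, h2, hconj y y' h3 hint, ?_⟩
    refine hconj (-y) (-y') ?_ hint.neg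
    intro p hp
    have h4 := h3 (p.comp (-Polynomial.X)) (by rw [aeval_comp]; simpa using hp)
    rw [aeval_comp] at h4
    simpa using h4
  · by_contra hcon
    push Not at hcon
    set c := SR * TR - TR * SR with hc
    have hcc : c * c = 0 := by
      calc c * c = c * c * ∑ y ∈ Y, E hZ y := by rw [hsumE, Matrix.mul_one]
        _ = ∑ y ∈ Y, c * c * E hZ y := by rw [Finset.mul_sum]
        _ = ∑ y ∈ Y, (0 : Matrix X X ℝ) := by
            refine Finset.sum_congr rfl fun y hy => ?_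
            rw [hc, (hEig y).ccE]
            by_cases h1 : y = r^2 + 1
            · rw [h1, hrst]; simp
            · have h2 := hcon y hy h1
              rw [h2]; simp
        _ = 0 := by simp
    have hct : cᵀ = -c := by
      rw [hc, Matrix.transpose_sub, Matrix.transpose_mul, Matrix.transpose_mul, hSs, hTs]; abel
    have hc0 : c = 0 := eq_zero_of_sq (by rw [hct, Matrix.neg_mul, hcc, neg_zero])
    have hcomm : SR * TR = TR * SR := sub_eq_zero.mp hc0
    have hR0 : SR * TR = 0 := by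
      apply eq_zero_of_trace
      rw [Matrix.transpose_mul, hSs, hTs, ← hcomm]
      have := htrR 2 (by omega) (by omega)
      rwa [pow_two] at this
    have h1 : TR = 0 := by
      have h2 : SR * (SR * TR) = 0 := by rw [hR0, Matrix.mul_zero]
      rw [← Matrix.mul_assoc, hS, Matrix.add_mul, Matrix.smul_mul, Matrix.smul_mul, hR0, Matrix.one_mul, smul_zero, add_zero] at h2
      rcases smul_eq_zero.mp h2 with h | h
      · linarith
      · exact h
    have h2 := hT
    rw [h1] at h2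
    simp only [Matrix.mul_zero, smul_zero, add_zero] at h2
    obtain ⟨x⟩ := ‹Nonempty X›
    have h3 := congrFun (congrFun h2 x) x
    simp only [Matrix.zero_apply, Matrix.smul_apply, Matrix.one_apply_eq, smul_eq_mul, mul_one] at h3
    linarith

end

end H24.FHMain
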