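import Mathlib

/-! Spectral projections of a real symmetric matrix, conjugate eigenvalues have the same multiplicity (helper24). -/

set_option autoImplicit false

namespace H24.FHSpec

open Matrix Polynomial

variable {X : Type*} [Fintype X] [DecidableEq X] {Z : Matrix X X ℝ} (hZ : Z.IsHermitian)

/-- the orthogonal projection to the `y`-eigenspace. -/
noncomputable def E (y : ℝ) : Matrix X X ℝ :=
  (hZ.eigenvectorUnitary : Matrix X X ℝ) * diagonal (fun i => if hZ.eigenvalues i = y then (1 : ℝ) else 0) *
    star (hZ.eigenvectorUnitary : Matrix X X ℝ)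

theorem U_star_mul : star (hZ.eigenvectorUnitary : Matrix X X ℝ) * (hZ.eigenvectorUnitary : Matrix X X ℝ) = 1 :=
  Unitary.coe_star_mul_self _

theorem U_mul_star : (hZ.eigenvectorUnitary : Matrix X X ℝ) * star (hZ.eigenvectorUnitary : Matrix X X ℝ) = 1 :=
  Unitary.coe_mul_star_self _

theorem spec : Z = (hZ.eigenvectorUnitary : Matrix X X ℝ) * diagonal hZ.eigenvalues *
    star (hZ.eigenvectorUnitary : Matrix X X ℝ) := by
  have h := hZ.spectral_theorem
  rw [Unitary.conjStarAlgAut_apply] at h
  exact h

theorem comm_E {M : Matrix X X ℝ} (h : M * Z = Z * M) (y : ℝ) : M * E hZ y = E hZ y * M := by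
  set U := (hZ.eigenvectorUnitary : Matrix X X ℝ) with hU
  have h1 : star U * U = 1 := U_star_mul hZ
  have h2 : U * star U = 1 := U_mul_star hZ
  set D := diagonal hZ.eigenvalues with hD
  have hs : Z = U * D * star U := spec hZ
  set N := star U * M * U with hN
  have hM : M = U * N * star U := by
    rw [hN]
    calc M = (U * star U) * M * (U * star U) := by rw [h2]; simp
      _ = U * (star U * M * U) * star U := by simp only [Matrix.mul_assoc]
  have hND : N * D = D * N := by
    have e1 : star U * (M * Z) * U = N * D := by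
      rw [hs, hN]
      calc star U * (M * (U * D * star U)) * U = (star U * M * U) * D * (star U * U) := by
            simp only [Matrix.mul_assoc]
        _ = (star U * M * U) * D := by rw [h1, Matrix.mul_one]
    have e2 : star U * (Z * M) * U = D * N := by
      rw [hs, hN]
      calc star U * (U * D * star U * M) * U = (star U * U) * D * (star U * M * U) := by
            simp only [Matrix.mul_assoc]
        _ = D * (star U * M * U) := by rw [h1, Matrix.one_mul]
    rw [← e1, ← e2, h]
  have hNi : N * diagonal (fun i => if hZ.eigenvalues i = y then (1 : ℝ) else 0)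
      = diagonal (fun i => if hZ.eigenvalues i = y then (1 : ℝ) else 0) * N := by
    ext i j
    rw [Matrix.mul_diagonal, Matrix.diagonal_mul]
    have e := congrFun (congrFun hND i) j
    rw [hD, Matrix.mul_diagonal, Matrix.diagonal_mul] at e
    by_cases hi : hZ.eigenvalues i = y <;> by_cases hj : hZ.eigenvalues j = y
    · simp [hi, hj]
    · simp only [hi, hj, if_true, if_false, mul_zero, one_mul]
      rw [hi] at e
      have : N i j * (hZ.eigenvalues j - y) = 0 := by linear_combination e
      rcases mul_eq_zero.mp this with h | h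
      · exact h.symm
      · exact absurd (sub_eq_zero.mp h) hj
    · simp only [hi, hj, if_true, if_false, zero_mul, mul_one]
      rw [hj] at e
      have : N i j * (hZ.eigenvalues i - y) = 0 := by linear_combination -e
      rcases mul_eq_zero.mp this with h | h
      · exact h
      · exact absurd (sub_eq_zero.mp h) hi
    · simp [hi, hj]
  unfold E
  rw [← hU]
  set D' := diagonal (fun i => if hZ.eigenvalues i = y then (1 : ℝ) else 0) with hD'
  calc M * (U * D' * star U) = U * N * (star U * U) * D' * star U := by
        conv_lhs => rw [hM]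
        simp only [Matrix.mul_assoc]
    _ = U * (N * D') * star U := by rw [h1]; simp only [Matrix.mul_assoc, Matrix.one_mul, Matrix.mul_one]
    _ = U * (D' * N) * star U := by rw [hNi]
    _ = U * D' * (star U * U) * N * star U := by rw [h1]; simp only [Matrix.mul_assoc, Matrix.one_mul, Matrix.mul_one]
    _ = U * D' * star U * M := by
        conv_rhs => rw [hM]
        simp only [Matrix.mul_assoc]

theorem mul_E (y : ℝ) : Z * E hZ y = y • E hZ y := by
  set U := (hZ.eigenvectorUnitary : Matrix X X ℝ) with hU
  have h1 : star U * U = 1 := U_star_mul hZ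
  have hs : Z = U * diagonal hZ.eigenvalues * star U := spec hZ
  unfold E
  rw [← hU]
  set D' := diagonal (fun i => if hZ.eigenvalues i = y then (1 : ℝ) else 0) with hD'
  have hDD : diagonal hZ.eigenvalues * D' = y • D' := by
    rw [hD', Matrix.diagonal_mul_diagonal, ← Matrix.diagonal_smul]
    congr 1
    ext i
    by_cases hi : hZ.eigenvalues i = y <;> simp [hi]
  calc Z * (U * D' * star U) = U * diagonal hZ.eigenvalues * (star U * U) * D' * star U := by
        conv_lhs => rw [hs]
        simp only [Matrix.mul_assoc]
    _ = U * (diagonal hZ.eigenvalues * D') * star U := by rw [h1]; simp only [Matrix.mul_assoc, Matrix.one_mul]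
    _ = y • (U * D' * star U) := by rw [hDD]; simp

theorem trace_E (y : ℝ) : (E hZ y).trace = ((Finset.univ.filter (fun i => hZ.eigenvalues i = y)).card : ℝ) := by
  unfold E
  rw [Matrix.trace_mul_comm, ← Matrix.mul_assoc, U_star_mul, Matrix.one_mul, Matrix.trace_diagonal]
  simp

theorem sum_E : ∑ y ∈ Finset.univ.image hZ.eigenvalues, E hZ y = 1 := by
  unfold E
  rw [← Finset.sum_mul, ← Finset.mul_sum]
  have : ∑ y ∈ Finset.univ.image hZ.eigenvalues, diagonal (fun i => if hZ.eigenvalues i = y then (1 : ℝ) else 0) = 1 := by
    ext i j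
    rw [Matrix.sum_apply]
    by_cases hij : i = j
    · subst hij
      simp
    · simp [hij]
  rw [this, Matrix.mul_one, U_mul_star]

theorem trace_E_eq_rootMultiplicity (y : ℝ) : (E hZ y).trace = (Z.charpoly.rootMultiplicity y : ℝ) := by
  rw [trace_E, ← Polynomial.count_roots, hZ.roots_charpoly_eq_eigenvalues, Multiset.count_map]
  congr 1
  rw [Finset.card_def, Finset.filter_val]
  congr 1
  apply Multiset.filter_congr
  intro i _
  exact eq_comm

theorem E_symm (y : ℝ) : (E hZ y)ᵀ = E hZ y := by
  unfold E
  rw [Matrix.transpose_mul, Matrix.transpose_mul, Matrix.diagonal_transpose, ← Matrix.mul_assoc]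
  have h1 : (star (hZ.eigenvectorUnitary : Matrix X X ℝ))ᵀ = (hZ.eigenvectorUnitary : Matrix X X ℝ) := by
    ext i j; simp [Matrix.star_apply]
  have h2 : ((hZ.eigenvectorUnitary : Matrix X X ℝ))ᵀ = star (hZ.eigenvectorUnitary : Matrix X X ℝ) := by
    ext i j; simp [Matrix.star_apply]
  rw [h1, h2]

/-- conjugate real roots of a rational polynomial have the same multiplicity. -/
theorem rootMultiplicity_eq_of_minpoly {χ : ℚ[X]} (hχ : χ ≠ 0) {y y' : ℝ}
    (hy : IsIntegral ℚ y) (hy' : aeval y' (minpoly ℚ y) = 0) :
    (χ.map (algebraMap ℚ ℝ)).rootMultiplicity y = (χ.map (algebraMap ℚ ℝ)).rootMultiplicity y' := by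
  have hne : χ.map (algebraMap ℚ ℝ) ≠ 0 := by
    rwa [Ne, Polynomial.map_eq_zero]
  have hmin : minpoly ℚ y' = minpoly ℚ y := by
    exact (minpoly.eq_of_irreducible_of_monic (minpoly.irreducible hy) hy' (minpoly.monic hy)).symm
  have key : ∀ (p : ℚ[X]), (p.map (algebraMap ℚ ℝ)).IsRoot y ↔ (p.map (algebraMap ℚ ℝ)).IsRoot y' := by
    intro p
    rw [IsRoot.def, IsRoot.def, eval_map_algebraMap, eval_map_algebraMap, ← minpoly.dvd_iff, ← minpoly.dvd_iff, hmin]
  have h1 : ∀ n : ℕ, n < (χ.map (algebraMap ℚ ℝ)).rootMultiplicity y ↔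
      n < (χ.map (algebraMap ℚ ℝ)).rootMultiplicity y' := by
    intro n
    rw [Polynomial.lt_rootMultiplicity_iff_isRoot_iterate_derivative hne,
      Polynomial.lt_rootMultiplicity_iff_isRoot_iterate_derivative hne]
    constructor
    · intro h m hm
      have := h m hm
      rw [Polynomial.iterate_derivative_map] at this ⊢
      exact (key _).mp this
    · intro h m hm
      have := h m hm
      rw [Polynomial.iterate_derivative_map] at this ⊢
      exact (key _).mpr this
  apply le_antisymm
  · by_contra h; push Not at h; exact absurd ((h1 _).mp h) (lt_irrefl _)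
  · by_contra h; push Not at h; exact absurd ((h1 _).mpr h) (lt_irrefl _)

end H24.FHSpec
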