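import Cfsg.Agent.Lib.H24.FHScal
import Cfsg.Agent.Lib.H24.FHSpec
import Cfsg.Agent.Lib.H24.FHAlg

/-! Matrix part of the Feit–Higman theorem (helper24). -/

set_option autoImplicit false

namespace H24.FHMat

open Matrix Polynomial H24.FHAlg H24.FHSpec H24.FHScal

variable {X : Type*} [Fintype X] [DecidableEq X] {S T E : Matrix X X ℝ} {s t y : ℝ}

theorem eq_zero_of_sq {M : Matrix X X ℝ} (h : Mᵀ * M = 0) : M = 0 := by
  have := (Matrix.conjTranspose_mul_self_eq_zero (A := M))
  rw [Matrix.conjTranspose_eq_transpose_of_trivial] at this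
  exact this.mp h

theorem eq_zero_of_trace {M : Matrix X X ℝ} (h : (Mᵀ * M).trace = 0) : M = 0 := by
  have := (Matrix.trace_conjTranspose_mul_self_eq_zero_iff (A := M))
  rw [Matrix.conjTranspose_eq_transpose_of_trivial] at this
  exact this.mp h

/-- conditions on an "eigenprojection". -/
structure Eig (S T E : Matrix X X ℝ) (s t y : ℝ) : Prop where
  hS : S * S = s • (1 : Matrix X X ℝ) + (s - 1) • S
  hT : T * T = t • (1 : Matrix X X ℝ) + (t - 1) • T
  hSE : S * E = E * S
  hTE : T * E = E * T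
  hZE : Zel s t S T * E = y • E

theorem Eig.swap (h : Eig S T E s t y) : Eig T S E t s y :=
  ⟨h.hT, h.hS, h.hTE, h.hSE, by rw [← Z_symm]; exact h.hZE⟩

theorem Eig.RRE (h : Eig S T E s t y) : (S * T) * (S * T) * E = y • (S * T * E) - (s * t) • E := by
  rw [R_sq h.hS h.hT, Matrix.sub_mul, Matrix.smul_mul, Matrix.one_mul]
  congr 1
  have e : Zel s t S T * (S * T) = (S * T) * Zel s t S T := by
    rw [← mul_assoc, ← Z_comm_S h.hS, mul_assoc, ← Z_comm_T h.hT, mul_assoc]
  rw [e, Matrix.mul_assoc, h.hZE, Matrix.mul_smul]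

theorem Eig.c_E (h : Eig S T E s t y) : (S * T - T * S) * E = E * (S * T - T * S) := by
  rw [Matrix.sub_mul, Matrix.mul_sub, Matrix.mul_assoc, h.hTE, ← Matrix.mul_assoc, h.hSE, Matrix.mul_assoc,
    Matrix.mul_assoc, h.hSE, ← Matrix.mul_assoc T, h.hTE, Matrix.mul_assoc]

theorem Eig.ccE (h : Eig S T E s t y) : (S * T - T * S) * (S * T - T * S) * E =
    ((y - (s * t + 1)) * (y + (s + t))) • E := by
  rw [c_sq h.hS h.hT, Matrix.mul_assoc, Matrix.add_mul, h.hZE, Matrix.smul_mul, Matrix.one_mul, ← add_smul,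
    Matrix.mul_smul, Matrix.sub_mul, h.hZE, Matrix.smul_mul, Matrix.one_mul, ← sub_smul, smul_smul]
  congr 1
  ring

theorem Eig.trace_SE (h : Eig S T E s t y) (h1 : y ≠ s * t + 1) (h2 : y ≠ -(s + t)) :
    2 * (S * E).trace = (s - 1) * E.trace := by
  set c := S * T - T * S with hc
  have hcc := h.ccE
  have hcE := h.c_E
  have hanti : c * S + S * c = (s - 1) • c := c_anti h.hS
  rw [← hc] at hcc hcE
  set lam := (y - (s * t + 1)) * (y + (s + t)) with hlam
  have hl : lam ≠ 0 := by
    rw [hlam]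
    apply mul_ne_zero
    · exact sub_ne_zero.mpr h1
    · intro h; apply h2; linarith
  have e1 : c * (c * S + S * c) * E = (s - 1) • (c * c * E) := by
    rw [hanti, Matrix.mul_smul, Matrix.smul_mul]
  have e2 : c * (c * S + S * c) * E = lam • (E * S) + c * S * c * E := by
    rw [Matrix.mul_add, Matrix.add_mul, ← Matrix.mul_assoc, ← Matrix.mul_assoc, Matrix.mul_assoc (c * c) S E, h.hSE,
      ← Matrix.mul_assoc (c * c), hcc, Matrix.smul_mul]
  have e3 : (c * S * c * E).trace = lam * (S * E).trace := by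
    rw [Matrix.mul_assoc (c * S), hcE, ← Matrix.mul_assoc, Matrix.trace_mul_comm, ← Matrix.mul_assoc,
      ← Matrix.mul_assoc, Matrix.mul_assoc (c * c), h.hSE, ← Matrix.mul_assoc, hcc, Matrix.smul_mul,
      Matrix.trace_smul, smul_eq_mul, ← h.hSE]
  have e4 := congrArg Matrix.trace (e2.symm.trans e1)
  rw [Matrix.trace_add, e3, Matrix.trace_smul, Matrix.trace_smul, hcc, Matrix.trace_smul, smul_eq_mul, smul_eq_mul,
    smul_eq_mul, ← h.hSE] at e4
  apply mul_left_cancel₀ hl
  linear_combination e4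

theorem Eig.trace_RE (h : Eig S T E s t y) (h1 : y ≠ s * t + 1) (h2 : y ≠ -(s + t)) :
    2 * (S * T * E).trace = y * E.trace := by
  have eS := h.trace_SE h1 h2
  have eT := h.swap.trace_SE (by rw [mul_comm]; exact h1) (by rw [add_comm]; exact h2)
  have eTS : (T * S * E).trace = (S * T * E).trace := by
    rw [Matrix.mul_assoc, Matrix.trace_mul_comm, Matrix.mul_assoc, ← h.hTE, ← Matrix.mul_assoc]
  have e := congrArg Matrix.trace h.hZE
  unfold Zel at e
  simp only [Matrix.add_mul, Matrix.sub_mul, Matrix.smul_mul, Matrix.one_mul, Matrix.trace_add, Matrix.trace_sub,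
    Matrix.trace_smul, smul_eq_mul, eTS] at e
  linear_combination e + (s-1)/2 * eT + (t-1)/2 * eS

theorem Eig.pow_E (h : Eig S T E s t y) (k : ℕ) :
    (S * T) ^ (k+1) * E = aseq (s * t) y (k+1) • (S * T * E) - (s * t * aseq (s * t) y k) • E := by
  induction k with
  | zero => simp [aseq]
  | succ k ih =>
    rw [pow_succ', Matrix.mul_assoc, ih, Matrix.mul_sub, Matrix.mul_smul, Matrix.mul_smul, ← Matrix.mul_assoc, h.RRE]
    have : aseq (s * t) y (k + 1 + 1) = y * aseq (s * t) y (k+1) - (s * t) * aseq (s * t) y k := rfl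
    rw [this]
    module

theorem Eig.even (h : Eig S T E s t y) (h1 : y ≠ s * t + 1) (h2 : y ≠ -(s + t)) (hE : E ≠ 0) {l : ℕ}
    (hl : 1 ≤ l) (hb : (S * T) ^ l = (T * S) ^ l) : aseq (s * t) y l = 0 := by
  obtain ⟨k, rfl⟩ : ∃ k, l = k + 1 := ⟨l - 1, by omega⟩
  have e1 := h.pow_E k
  have e2 := h.swap.pow_E k
  rw [mul_comm t s] at e2
  rw [← hb, e1] at e2
  have e3 : aseq (s * t) y (k+1) • ((S * T - T * S) * E) = 0 := by
    rw [Matrix.sub_mul, smul_sub]
    rw [sub_left_inj] at e2
    rw [e2, sub_self]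
  have e4 : (aseq (s * t) y (k+1) * ((y - (s * t + 1)) * (y + (s + t)))) • E = 0 := by
    rw [mul_smul, ← h.ccE, Matrix.mul_assoc, ← Matrix.mul_smul, e3, Matrix.mul_zero]
  rcases smul_eq_zero.mp e4 with h3 | h3
  · rcases mul_eq_zero.mp h3 with h4 | h4
    · exact h4
    · exfalso
      rcases mul_eq_zero.mp h4 with h5 | h5
      · exact h1 (by linarith)
      · exact h2 (by linarith)
  · exact absurd h3 hE

theorem Eig.odd (h : Eig S T E s s y) (h1 : y ≠ s * s + 1) (hE : E ≠ 0) {l : ℕ}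
    (hl : 1 ≤ l) (hb : (S * T) ^ l * S = (T * S) ^ l * T) :
    aseq (s * s) y (l+1) + s * aseq (s * s) y l = 0 := by
  obtain ⟨k, rfl⟩ : ∃ k, l = k + 1 := ⟨l - 1, by omega⟩
  have e1 := h.pow_E k
  have e2 := h.swap.pow_E k
  have e3 : (S * T) ^ (k+1) * E * S = (T * S) ^ (k+1) * E * T := by
    rw [Matrix.mul_assoc, Matrix.mul_assoc, ← h.hSE, ← h.hTE, ← Matrix.mul_assoc, ← Matrix.mul_assoc, hb]
  rw [e1, e2] at e3
  set a := aseq (s * s) y (k+1)
  set b := aseq (s * s) y k
  have e4 : (a * (y + s) - s * s * b) • ((S - T) * E) = 0 := by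
    have e5 : a • (S * T * S - T * S * T) * E - (s * s * b) • ((S - T) * E) = 0 := by
      have : a • (S * T * S - T * S * T) * E - (s * s * b) • ((S - T) * E) =
          (a • (S * T * E) - (s * s * b) • E) * S - (a • (T * S * E) - (s * s * b) • E) * T := by
        simp only [Matrix.sub_mul, Matrix.smul_mul, Matrix.mul_assoc, ← h.hSE, ← h.hTE, smul_sub]
        abel
      rw [this, e3, sub_self]
    rw [odd_rel h.hS h.hT] at e5
    have e6 : (Zel s s S T + s • (1 : Matrix X X ℝ)) * (S - T) * E = (y + s) • ((S - T) * E) := by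
      have e7 : (S - T) * E = E * (S - T) := by rw [Matrix.sub_mul, Matrix.mul_sub, h.hSE, h.hTE]
      rw [Matrix.mul_assoc, e7, ← Matrix.mul_assoc, Matrix.add_mul, h.hZE, Matrix.smul_mul, Matrix.one_mul, ← add_smul,
        Matrix.smul_mul]
    rw [Matrix.smul_mul, e6] at e5
    rw [← e5]
    module
  have e8 : (S - T) * (S - T) * E = (s * s + 1 - y) • E := by
    rw [diff_sq h.hS h.hT, Matrix.sub_mul, Matrix.smul_mul, Matrix.one_mul, h.hZE, ← sub_smul]
  have e9 : ((a * (y + s) - s * s * b) * (s * s + 1 - y)) • E = 0 := by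
    rw [mul_smul, ← e8, Matrix.mul_assoc, ← Matrix.mul_smul, e4, Matrix.mul_zero]
  rcases smul_eq_zero.mp e9 with h3 | h3
  · rcases mul_eq_zero.mp h3 with h4 | h4
    · have : aseq (s * s) y (k + 1 + 1) = y * a - (s * s) * b := rfl
      rw [this]; linarith
    · exact absurd (by linarith : y = s * s + 1) h1
  · exact absurd h3 hE

/-- at `y = -2s` (`s = t`): `R E = - s E`. -/
theorem Eig.neg (h : Eig S T E s s y) (hy : y = -(s + s)) (hSs : Sᵀ = S) (hTs : Tᵀ = T) (hEs : Eᵀ = E) :
    S * T * E = (-s) • E := by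
  have hcE : (S * T - T * S) * E = 0 := by
    apply eq_zero_of_sq
    rw [Matrix.transpose_mul, Matrix.transpose_sub, Matrix.transpose_mul, Matrix.transpose_mul, hSs, hTs, hEs]
    have : E * (T * S - S * T) * ((S * T - T * S) * E) = - (E * ((S * T - T * S) * (S * T - T * S) * E)) := by
      rw [← neg_sub (S * T) (T * S)]
      simp only [Matrix.mul_neg, Matrix.neg_mul, Matrix.mul_assoc]
    rw [this, h.ccE, hy]
    simp
  set M := (S * T + s • (1 : Matrix X X ℝ)) * E with hM
  have hRE : S * T * E = T * S * E := by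
    rw [Matrix.sub_mul] at hcE; exact sub_eq_zero.mp hcE
  have hMs : Mᵀ = M := by
    rw [hM, Matrix.transpose_mul, Matrix.transpose_add, Matrix.transpose_mul, hSs, hTs, hEs, Matrix.transpose_smul,
      Matrix.transpose_one, Matrix.add_mul, Matrix.mul_add, hRE, ← Matrix.mul_assoc, ← h.hTE, Matrix.mul_assoc,
      ← h.hSE, Matrix.mul_assoc]
    simp
  have hMM : M * M = 0 := by
    have e1 : E * (S * T) = (S * T) * E := by
      rw [← Matrix.mul_assoc, ← h.hSE, Matrix.mul_assoc, ← h.hTE, Matrix.mul_assoc]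
    have e2 : M * M = ((S * T) * (S * T) * E + (2 * s) • (S * T * E) + (s * s) • E) * E := by
      rw [hM]
      simp only [Matrix.add_mul, Matrix.mul_add, Matrix.smul_mul, Matrix.mul_smul, Matrix.one_mul, Matrix.mul_one]
      have e3 : S * T * E * (S * T * E) = S * T * (S * T) * E * E := by
        calc S * T * E * (S * T * E) = S * T * (E * (S * T)) * E := by simp only [Matrix.mul_assoc]
          _ = _ := by rw [e1]; simp only [Matrix.mul_assoc]
      have e4 : E * (S * T * E) = S * T * E * E := by rw [← Matrix.mul_assoc, e1]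
      rw [e3, e4]
      module
    rw [e2, h.RRE, hy]
    have : (-(s + s)) • (S * T * E) - (s * s) • E + (2 * s) • (S * T * E) + (s * s) • E = 0 := by module
    rw [this, Matrix.zero_mul]
  have hM0 : M = 0 := eq_zero_of_sq (by rw [hMs, hMM])
  rw [hM, Matrix.add_mul, Matrix.smul_mul, Matrix.one_mul] at hM0
  rw [neg_smul]
  exact eq_neg_of_add_eq_zero_left hM0

end H24.FHMat
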