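import Mathlib

/-! Scalar part of the Feit–Higman theorem (helper24). -/

set_option autoImplicit false

namespace H24.FHScal

open Finset

/-- the sequence `a_0 = 0, a_1 = 1, a_{k+2} = y a_{k+1} - p a_k`. -/
noncomputable def aseq (p y : ℝ) : ℕ → ℝ
  | 0 => 0
  | 1 => 1
  | (k+2) => y * aseq p y (k+1) - p * aseq p y k

theorem aseq_closed {p y : ℝ} {α β : ℂ} (h1 : α + β = y) (h2 : α * β = p) (k : ℕ) :
    (aseq p y k : ℂ) * (α - β) = α ^ k - β ^ k := by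
  induction k using Nat.twoStepInduction with
  | zero => simp [aseq]
  | one => simp [aseq]
  | more k ih1 ih2 =>
    simp only [aseq, Complex.ofReal_sub, Complex.ofReal_mul]
    rw [← h1, ← h2] at *
    have : ((α + β) * (aseq p y (k+1) : ℂ) - (α * β) * (aseq p y k : ℂ)) * (α - β)
      = (α + β) * ((aseq p y (k+1) : ℂ) * (α - β)) - (α * β) * ((aseq p y k : ℂ) * (α - β)) := by ring
    rw [this, ih1, ih2]
    ring

theorem aseq_double {p y : ℝ} {α : ℂ} (h1 : α + α = y) (h2 : α * α = p) (k : ℕ) :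
    (aseq p y (k+1) : ℂ) = (k+1) * α ^ k := by
  induction k using Nat.twoStepInduction with
  | zero => simp [aseq]
  | one => simp [aseq, ← h1]; ring
  | more k ih1 ih2 =>
    have : aseq p y (k+2+1) = y * aseq p y (k+2) - p * aseq p y (k+1) := rfl
    rw [this, Complex.ofReal_sub, Complex.ofReal_mul, Complex.ofReal_mul, ih1]
    have e2 : (aseq p y (k+2) : ℂ) = ((k+1:ℕ)+1) * α ^ (k+1) := ih2
    rw [e2, ← h1, ← h2]
    push_cast
    ring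

theorem gen_even {r y : ℝ} (hr : 0 < r) {l : ℕ} (hl : 1 ≤ l) (ha : aseq (r^2) y l = 0) {w : ℂ} (hw : w ≠ 0)
    (hy : (y : ℂ) = r * (w + w⁻¹)) : w ^ (2 * l) = 1 ∧ w ^ 2 ≠ 1 := by
  have hr' : (r : ℂ) ≠ 0 := by exact_mod_cast hr.ne'
  have h1 : (r * w) + (r * w⁻¹) = (y : ℂ) := by rw [hy]; ring
  have h2 : (r * w) * (r * w⁻¹) = ((r^2 : ℝ) : ℂ) := by
    push_cast; field_simp
  have key := aseq_closed h1 h2 l
  rw [ha] at key
  have e : w ^ l = (w⁻¹) ^ l := by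
    have h3 : (r : ℂ)^l * (w ^ l - (w⁻¹) ^ l) = 0 := by
      have : (r : ℂ)^l * (w ^ l - (w⁻¹) ^ l) = (r * w) ^ l - (r * w⁻¹) ^ l := by
        rw [mul_pow, mul_pow]; ring
      rw [this, ← key]; simp
    rcases mul_eq_zero.mp h3 with h | h
    · exact absurd h (pow_ne_zero _ hr')
    · exact sub_eq_zero.mp h
  constructor
  · rw [two_mul, pow_add]
    nth_rw 2 [e]
    rw [← mul_pow, mul_inv_cancel₀ hw, one_pow]
  · intro hsq
    have hinv : w⁻¹ = w := by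
      rw [inv_eq_iff_eq_inv]
      exact eq_inv_of_mul_eq_one_left (by rw [← hsq]; ring)
    have h1' : (r * w) + (r * w) = (y : ℂ) := by rw [hy, hinv]; ring
    have h2' : (r * w) * (r * w) = ((r^2 : ℝ) : ℂ) := by rw [← h2, hinv]
    obtain ⟨j, rfl⟩ : ∃ j, l = j + 1 := ⟨l - 1, by omega⟩
    have := aseq_double h1' h2' j
    rw [ha] at this
    have hne : ((j : ℂ) + 1) * (r * w) ^ j ≠ 0 := by
      apply mul_ne_zero
      · exact_mod_cast Nat.succ_ne_zero j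
      · exact pow_ne_zero _ (mul_ne_zero hr' hw)
    exact hne (by rw [← this]; simp)

theorem gen_odd {r y : ℝ} (hr : 0 < r) {l : ℕ} (ha : aseq (r^2) y (l+1) + r * aseq (r^2) y l = 0)
    {w : ℂ} (hw : w ≠ 0)
    (hy : (y : ℂ) = r * (w + w⁻¹)) : w ^ (2 * l + 1) = 1 ∧ w ^ 2 ≠ 1 := by
  have hr' : (r : ℂ) ≠ 0 := by exact_mod_cast hr.ne'
  have h1 : (r * w) + (r * w⁻¹) = (y : ℂ) := by rw [hy]; ring
  have h2 : (r * w) * (r * w⁻¹) = ((r^2 : ℝ) : ℂ) := by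
    push_cast; field_simp
  have key := aseq_closed h1 h2 l
  have key' := aseq_closed h1 h2 (l+1)
  have haC : (aseq (r^2) y (l+1) : ℂ) + r * (aseq (r^2) y l : ℂ) = 0 := by exact_mod_cast ha
  have hsq : w ^ 2 ≠ 1 := by
    intro hsq
    have hinv : w⁻¹ = w := by
      rw [inv_eq_iff_eq_inv]
      exact eq_inv_of_mul_eq_one_left (by rw [← hsq]; ring)
    have h1' : (r * w) + (r * w) = (y : ℂ) := by rw [hy, hinv]; ring
    have h2' : (r * w) * (r * w) = ((r^2 : ℝ) : ℂ) := by rw [← h2, hinv]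
    rcases l with _ | j
    · simp [aseq] at ha
    · have e1 := aseq_double h1' h2' j
      have e2 := aseq_double h1' h2' (j+1)
      rw [e1, e2] at haC
      have e3 : (r * w) ^ j * r * (((j:ℂ) + 2) * w + (j + 1)) = 0 := by
        push_cast at haC
        linear_combination haC
      have e4 : ((j:ℂ) + 2) * w + (j + 1) = 0 := by
        rcases mul_eq_zero.mp e3 with h | h
        · exact absurd h (mul_ne_zero (pow_ne_zero _ (mul_ne_zero hr' hw)) hr')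
        · exact h
      have e5 : ((j:ℂ)+2)^2 = (j+1)^2 := by
        have : ((j:ℂ) + 2) * w = -(j + 1) := by linear_combination e4
        calc ((j:ℂ)+2)^2 = (((j:ℂ)+2) * w)^2 := by rw [mul_pow, hsq, mul_one]
          _ = _ := by rw [this]; ring
      have e6 : ((j+2)^2 : ℕ) = (j+1)^2 := by exact_mod_cast e5
      have e7 : (j+1)^2 < (j+2)^2 := Nat.pow_lt_pow_left (by omega) (by norm_num)
      omega
  refine ⟨?_, hsq⟩
  have e : w ^ (l+1) - (w⁻¹)^(l+1) + (w ^ l - (w⁻¹)^l) = 0 := by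
    have h3 : (r : ℂ)^(l+1) * (w ^ (l+1) - (w⁻¹)^(l+1) + (w ^ l - (w⁻¹)^l)) = 0 := by
      have : (r : ℂ)^(l+1) * (w ^ (l+1) - (w⁻¹)^(l+1) + (w ^ l - (w⁻¹)^l)) =
        ((r * w) ^ (l+1) - (r * w⁻¹) ^ (l+1)) + r * ((r * w) ^ l - (r * w⁻¹) ^ l) := by
        rw [mul_pow, mul_pow, mul_pow, mul_pow]; ring
      rw [this, ← key, ← key']
      linear_combination (r * w - r * w⁻¹) * haC
    rcases mul_eq_zero.mp h3 with h | h
    · exact absurd h (pow_ne_zero _ hr')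
    · exact h
  have e2 : (w + 1) * (w ^ (2*l+1) - 1) = 0 := by
    have h4 : w ^ (l+1) * ((w⁻¹) ^ (l+1)) = 1 := by rw [← mul_pow, mul_inv_cancel₀ hw, one_pow]
    have h5 : w ^ l * ((w⁻¹) ^ l) = 1 := by rw [← mul_pow, mul_inv_cancel₀ hw, one_pow]
    have h6 : w ^ (l+1) * (w ^ (l+1) - (w⁻¹)^(l+1) + (w ^ l - (w⁻¹)^l)) = 0 := by rw [e, mul_zero]
    have h7 : w ^ (l+1) * (w ^ (l+1) - (w⁻¹)^(l+1) + (w ^ l - (w⁻¹)^l)) =
      w ^ (2*l+2) - w^(l+1)*(w⁻¹)^(l+1) + w^(2*l+1) - w * (w^l * (w⁻¹)^l) := by ring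
    rw [h7, h4, h5] at h6
    linear_combination h6
  rcases mul_eq_zero.mp e2 with h | h
  · exfalso; apply hsq
    have : w = -1 := by linear_combination h
    rw [this]; ring
  · linear_combination h

theorem exists_w {r : ℝ} (hr : 0 < r) (y : ℝ) : ∃ w : ℂ, w ≠ 0 ∧ (y : ℂ) = r * (w + w⁻¹) := by
  obtain ⟨s, hs⟩ := IsAlgClosed.exists_pow_nat_eq (((y/r : ℝ) : ℂ)^2 - 4) (n := 2) (by norm_num)
  have hr' : (r : ℂ) ≠ 0 := by exact_mod_cast hr.ne'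
  set v : ℂ := ((y/r : ℝ) : ℂ) with hv
  have hprod : ((v + s)/2) * ((v - s)/2) = 1 := by linear_combination (-1/4 : ℂ) * hs
  have hne : ((v + s)/2) ≠ 0 := by
    intro h; rw [h, zero_mul] at hprod; exact zero_ne_one hprod
  refine ⟨(v + s)/2, hne, ?_⟩
  have hinv : ((v + s)/2)⁻¹ = (v - s)/2 := by
    exact inv_eq_of_mul_eq_one_right hprod
  rw [hinv]
  have : (v + s)/2 + (v - s)/2 = v := by ring
  rw [this, hv]
  push_cast
  field_simp

theorem geom_pair {r : ℝ} (x : ℝ) (hr : 0 < r) {m : ℕ} {w : ℂ} (hw : w ≠ 0) (hwm : w ^ m = 1) :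
    ((x:ℂ)^2 - r * (w + w⁻¹) * x + r^2) * ∑ k ∈ range m, (w^k + (w⁻¹)^k) * ((x/r : ℝ) : ℂ)^k
      = (((x/r : ℝ) : ℂ)^m - 1) * (r * (w + w⁻¹) * x - 2 * r^2) := by
  have hr' : (r : ℂ) ≠ 0 := by exact_mod_cast hr.ne'
  set q : ℂ := ((x/r : ℝ) : ℂ) with hq
  have hx : (x : ℂ) = r * q := by rw [hq]; push_cast; field_simp
  have h1 : (w * q - 1) * ∑ k ∈ range m, (w * q)^k = q ^ m - 1 := by
    rw [mul_comm, geom_sum_mul, mul_pow, hwm, one_mul]
  have h2 : (w⁻¹ * q - 1) * ∑ k ∈ range m, (w⁻¹ * q)^k = q ^ m - 1 := by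
    rw [mul_comm, geom_sum_mul, mul_pow, inv_pow, hwm, inv_one, one_mul]
  have h3 : ∑ k ∈ range m, (w^k + (w⁻¹)^k) * q^k
      = ∑ k ∈ range m, (w * q)^k + ∑ k ∈ range m, (w⁻¹ * q)^k := by
    rw [← Finset.sum_add_distrib]
    refine Finset.sum_congr rfl fun k _ => ?_
    rw [mul_pow, mul_pow]; ring
  rw [h3, hx]
  have h4 : ((r * q)^2 - r * (w + w⁻¹) * (r * q) + r^2) = r^2 * ((w * q - 1) * (w⁻¹ * q - 1)) := by
    have : w * w⁻¹ = 1 := mul_inv_cancel₀ hw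
    linear_combination (-(r:ℂ)^2 * q^2) * this
  rw [h4]
  linear_combination (r:ℂ)^2 * (w⁻¹ * q - 1) * h1 + (r:ℂ)^2 * (w * q - 1) * h2

theorem sum_root {m : ℕ} {z : ℂ} (hz : z ^ m = 1) : ∑ k ∈ range m, z ^ k = if z = 1 then (m:ℂ) else 0 := by
  split_ifs with h
  · simp [h]
  · have := geom_sum_mul z m
    rw [hz, sub_self] at this
    rcases mul_eq_zero.mp this with h' | h'
    · exact h'
    · exact absurd (sub_eq_zero.mp h') h

theorem orth {m : ℕ} {w v : ℂ} (hw0 : w ≠ 0) (hv0 : v ≠ 0) (hw : w ^ m = 1) (hv : v ^ m = 1) (hv2 : v ^ 2 ≠ 1) :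
    ∑ k ∈ range m, (w^k + (w⁻¹)^k) * (v^k + (v⁻¹)^k) =
      if w + w⁻¹ = v + v⁻¹ then 2 * (m:ℂ) else 0 := by
  have e : ∑ k ∈ range m, (w^k + (w⁻¹)^k) * (v^k + (v⁻¹)^k) =
      ∑ k ∈ range m, (w * v)^k + ∑ k ∈ range m, (w * v⁻¹)^k + ∑ k ∈ range m, (w⁻¹ * v)^k
        + ∑ k ∈ range m, (w⁻¹ * v⁻¹)^k := by
    rw [← Finset.sum_add_distrib, ← Finset.sum_add_distrib, ← Finset.sum_add_distrib]
    refine Finset.sum_congr rfl fun k _ => ?_
    simp only [mul_pow]; ring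
  rw [e, sum_root (by rw [mul_pow, hw, hv, one_mul]), sum_root (by rw [mul_pow, inv_pow, hw, hv]; simp),
    sum_root (by rw [mul_pow, inv_pow, hw, hv]; simp), sum_root (by rw [mul_pow, inv_pow, inv_pow, hw, hv]; simp)]
  have hww : w * w⁻¹ = 1 := mul_inv_cancel₀ hw0
  have hvv : v * v⁻¹ = 1 := mul_inv_cancel₀ hv0
  have hne : v ≠ v⁻¹ := by
    intro h; apply hv2
    calc v ^ 2 = v * v := by ring
      _ = v * v⁻¹ := by rw [← h]
      _ = 1 := hvv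
  have c1 : w * v = 1 ↔ w = v⁻¹ := mul_eq_one_iff_eq_inv₀ hv0
  have c2 : w * v⁻¹ = 1 ↔ w = v := by
    rw [mul_eq_one_iff_eq_inv₀ (inv_ne_zero hv0), inv_inv]
  have c3 : w⁻¹ * v = 1 ↔ w = v := by
    rw [mul_eq_one_iff_eq_inv₀ hv0, inv_inj]
  have c4 : w⁻¹ * v⁻¹ = 1 ↔ w = v⁻¹ := by
    rw [mul_eq_one_iff_eq_inv₀ (inv_ne_zero hv0), inv_inv, inv_eq_iff_eq_inv]
  have c5 : w + w⁻¹ = v + v⁻¹ ↔ (w = v ∨ w = v⁻¹) := by
    constructor
    · intro h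
      have : (w - v) * (w - v⁻¹) = 0 := by
        linear_combination w * h - hww + hvv
      rcases mul_eq_zero.mp this with h | h
      · exact Or.inl (sub_eq_zero.mp h)
      · exact Or.inr (sub_eq_zero.mp h)
    · rintro (h | h)
      · rw [h]
      · rw [h, inv_inv, add_comm]
  simp only [c1, c2, c3, c4, c5]
  by_cases h1 : w = v
  · have h2 : w ≠ v⁻¹ := by rw [h1]; exact hne
    simp only [if_neg h2, if_pos h1, if_pos (Or.inl h1 : w = v ∨ w = v⁻¹)]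
    ring
  · by_cases h2 : w = v⁻¹
    · simp only [if_pos h2, if_neg h1, if_pos (Or.inr h2 : w = v ∨ w = v⁻¹)]
      ring
    · have h3 : ¬ (w = v ∨ w = v⁻¹) := by tauto
      simp only [if_neg h2, if_neg h1, if_neg h3]
      ring

/-- the closed form of a sequence with characteristic polynomial having distinct roots `a, b`. -/
theorem two_term {a b : ℝ} (hab : a ≠ b) (v : ℕ → ℝ) (hv : ∀ k, v (k+2) = (a + b) * v (k+1) - (a * b) * v k) :
    ∃ p q : ℝ, ∀ k, v k = p * a ^ k + q * b ^ k := by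
  have h : a - b ≠ 0 := sub_ne_zero.mpr hab
  refine ⟨(v 1 - b * v 0)/(a - b), (a * v 0 - v 1)/(a - b), fun k => ?_⟩
  induction k using Nat.twoStepInduction with
  | zero => field_simp; ring
  | one => field_simp; ring
  | more k ih1 ih2 =>
    rw [hv, ih1, ih2]; ring

/-- contribution of one eigenvalue -/
noncomputable def contr (m : ℕ) (r : ℝ) (w : ℂ) (u : ℕ → ℝ → ℝ) (y : ℝ) : ℂ :=
  ∑ k ∈ range m, (w^k + (w⁻¹)^k) * (((u k y) / r ^ k : ℝ) : ℂ)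

theorem contr_gen {m : ℕ} {r : ℝ} (hr : 0 < r) {w : ℂ} (hw0 : w ≠ 0) (hw : w ^ m = 1) {u : ℕ → ℝ → ℝ} {y : ℝ}
    (hrec : ∀ k, u (k+2) y = y * u (k+1) y - r^2 * u k y) (hgen : 2 * u 1 y = y * u 0 y)
    (hv : ∀ v : ℂ, v ≠ 0 → (y : ℂ) = r * (v + v⁻¹) → v ^ m = 1 ∧ v ^ 2 ≠ 1) :
    contr m r w u y = if (y : ℂ) = r * (w + w⁻¹) then (m : ℂ) * (u 0 y : ℝ) else 0 := by
  have hr' : (r : ℂ) ≠ 0 := by exact_mod_cast hr.ne'
  obtain ⟨v, hv0, hy⟩ := exists_w hr y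
  obtain ⟨hvm, hv2⟩ := hv v hv0 hy
  have hvv : v * v⁻¹ = 1 := mul_inv_cancel₀ hv0
  have key : ∀ k, (((u k y) / r ^ k : ℝ) : ℂ) = (u 0 y : ℝ) / 2 * (v ^ k + (v⁻¹)^k) := by
    intro k
    induction k using Nat.twoStepInduction with
    | zero => simp; ring
    | one =>
      have : (2:ℂ) * (u 1 y : ℝ) = y * (u 0 y : ℝ) := by exact_mod_cast hgen
      rw [hy] at this
      rw [pow_one, pow_one, pow_one, Complex.ofReal_div, div_eq_iff hr']
      linear_combination this / 2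
    | more k ih1 ih2 =>
      rw [hrec]
      have e : ((y * u (k+1) y - r^2 * u k y) / r^(k+2) : ℝ) = (y/r) * (u (k+1) y / r^(k+1)) - u k y / r^k := by
        field_simp
        ring
      rw [e, Complex.ofReal_sub, Complex.ofReal_mul, ih1, ih2]
      have e2 : ((y/r : ℝ) : ℂ) = v + v⁻¹ := by
        push_cast; rw [hy]; field_simp
      rw [e2]
      linear_combination ((u 0 y : ℝ) / 2 * (v^k + (v⁻¹)^k) : ℂ) * hvv
  unfold contr
  have : ∑ k ∈ range m, (w^k + (w⁻¹)^k) * (((u k y) / r ^ k : ℝ) : ℂ)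
      = (u 0 y : ℝ) / 2 * ∑ k ∈ range m, (w^k + (w⁻¹)^k) * (v ^ k + (v⁻¹)^k) := by
    rw [Finset.mul_sum]
    refine Finset.sum_congr rfl fun k _ => ?_
    rw [key]; ring
  rw [this, orth hw0 hv0 hw hvm hv2]
  have e3 : ((y : ℂ) = r * (w + w⁻¹)) ↔ (w + w⁻¹ = v + v⁻¹) := by
    rw [hy]
    constructor
    · intro h; exact (mul_left_cancel₀ hr' h).symm
    · intro h; rw [h]
  simp only [e3]
  split_ifs
  · ring
  · ring

/-- the contribution of an eigenvalue where `u` is a sum of two geometric progressions -/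
theorem contr_two {m : ℕ} {r : ℝ} (hr : 0 < r) {w : ℂ} (hw0 : w ≠ 0) (hw : w ^ m = 1) {u : ℕ → ℝ → ℝ} {y : ℝ}
    {a b p q : ℝ} (hab : a * b = r^2) (hu : ∀ k, u k y = p * a ^ k + q * b ^ k) {y₀ : ℝ}
    (hy₀ : (y₀ : ℂ) = r * (w + w⁻¹)) :
    ((a + b - y₀ : ℝ) : ℂ) * contr m r w u y =
      ((p * ((a/r)^m - 1) * (y₀ - 2 * b) + q * ((b/r)^m - 1) * (y₀ - 2 * a) : ℝ) : ℂ) := by
  have hr' : (r : ℂ) ≠ 0 := by exact_mod_cast hr.ne'
  have ha : a ≠ 0 := by rintro rfl; rw [zero_mul] at hab; exact (pow_ne_zero 2 hr.ne') hab.symm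
  have hb : b ≠ 0 := by rintro rfl; rw [mul_zero] at hab; exact (pow_ne_zero 2 hr.ne') hab.symm
  have ga := geom_pair a hr hw0 hw
  have gb := geom_pair b hr hw0 hw
  have e : contr m r w u y = p * ∑ k ∈ range m, (w^k + (w⁻¹)^k) * ((a/r : ℝ) : ℂ)^k
      + q * ∑ k ∈ range m, (w^k + (w⁻¹)^k) * ((b/r : ℝ) : ℂ)^k := by
    unfold contr
    rw [Finset.mul_sum, Finset.mul_sum, ← Finset.sum_add_distrib]
    refine Finset.sum_congr rfl fun k _ => ?_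
    rw [hu]
    push_cast
    rw [div_pow, div_pow]
    field_simp
  rw [← hy₀] at ga gb
  set Sa := ∑ k ∈ range m, (w^k + (w⁻¹)^k) * ((a/r : ℝ) : ℂ)^k
  set Sb := ∑ k ∈ range m, (w^k + (w⁻¹)^k) * ((b/r : ℝ) : ℂ)^k
  have haC : (a:ℂ) ≠ 0 := by exact_mod_cast ha
  have hbC : (b:ℂ) ≠ 0 := by exact_mod_cast hb
  have habC : (a:ℂ) * b = r^2 := by exact_mod_cast hab
  have ga' : ((a:ℂ) + b - y₀) * Sa = (((a/r : ℝ) : ℂ)^m - 1) * (y₀ - 2 * b) := by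
    apply mul_left_cancel₀ haC
    rw [← habC] at ga
    linear_combination ga
  have gb' : ((a:ℂ) + b - y₀) * Sb = (((b/r : ℝ) : ℂ)^m - 1) * (y₀ - 2 * a) := by
    apply mul_left_cancel₀ hbC
    rw [← habC] at gb
    linear_combination gb
  rw [e]
  push_cast at ga' gb' ⊢
  linear_combination (p:ℂ) * ga' + (q:ℂ) * gb'

/-- real version of contribution sum: total is `2N`. -/
theorem contr_total {m : ℕ} (hm : 1 ≤ m) {r N : ℝ} {w : ℂ} {u : ℕ → ℝ → ℝ} {Y : Finset ℝ}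
    (hsum : ∀ k < m, ∑ y ∈ Y, u k y = if k = 0 then N else 0) :
    ∑ y ∈ Y, contr m r w u y = 2 * N := by
  unfold contr
  rw [Finset.sum_comm]
  have : ∀ k ∈ range m, ∑ y ∈ Y, (w^k + (w⁻¹)^k) * (((u k y) / r ^ k : ℝ) : ℂ) = if k = 0 then (2 * N : ℂ) else 0 := by
    intro k hk
    rw [← Finset.mul_sum]
    have h1 : ∑ y ∈ Y, (((u k y) / r ^ k : ℝ) : ℂ) = (((if k = 0 then N else 0) / r^k : ℝ) : ℂ) := by
      rw [← hsum k (Finset.mem_range.mp hk), ← Complex.ofReal_sum, Finset.sum_div]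
    rw [h1]
    split_ifs with h
    · subst h
      simp only [if_true, pow_zero, div_one]; ring
    · simp
  rw [Finset.sum_congr rfl this, Finset.sum_ite_eq' (range m) 0]
  rw [if_pos (Finset.mem_range.mpr hm)]

/-- Hypotheses on the traces. -/
structure Data (m : ℕ) (r σ N : ℝ) (Y : Finset ℝ) (u : ℕ → ℝ → ℝ) : Prop where
  hm : 3 ≤ m
  hr : 0 < r
  hrec : ∀ k y, u (k+2) y = y * u (k+1) y - r^2 * u k y
  hgen : ∀ y, y ≠ r^2 + 1 → y ≠ -σ → 2 * u 1 y = y * u 0 y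
  hv : ∀ y ∈ Y, y ≠ r^2 + 1 → y ≠ -σ → ∀ v : ℂ, v ≠ 0 → (y : ℂ) = r * (v + v⁻¹) → v ^ m = 1 ∧ v ^ 2 ≠ 1
  hsum : ∀ k < m, ∑ y ∈ Y, u k y = if k = 0 then N else 0
  hY : ∀ k, ∀ y ∉ Y, u k y = 0

theorem contr_split {m : ℕ} {r σ N : ℝ} {Y : Finset ℝ} {u : ℕ → ℝ → ℝ} (D : Data m r σ N Y u)
    (hσ : 0 < σ) {w : ℂ} (hw0 : w ≠ 0) (hw : w ^ m = 1) {y₀ : ℝ} (hy₀ : (y₀ : ℂ) = r * (w + w⁻¹)) :
    2 * (N : ℂ) = contr m r w u (r^2+1) + contr m r w u (-σ) +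
      (if w ^ 2 ≠ 1 ∧ y₀ ≠ r^2 + 1 ∧ y₀ ≠ -σ then (m : ℂ) * (u 0 y₀ : ℝ) else 0) := by
  rw [← contr_total (by have := D.hm; omega) D.hsum (r := r) (w := w)]
  have hr := D.hr
  have hne : (r^2 + 1 : ℝ) ≠ -σ := by
    have : 0 < r^2 := by positivity
    intro h; linarith
  have hzero : ∀ y, y ∉ Y → contr m r w u y = 0 := by
    intro y hy
    unfold contr
    apply Finset.sum_eq_zero
    intro k _
    rw [D.hY k y hy]; simp
  have hgen : ∀ y ∈ Y, y ≠ r^2 + 1 → y ≠ -σ → contr m r w u y =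
      if (w ^ 2 ≠ 1 ∧ y₀ ≠ r^2 + 1 ∧ y₀ ≠ -σ) ∧ y = y₀ then (m : ℂ) * (u 0 y₀ : ℝ) else 0 := by
    intro y hy h1 h2
    rw [contr_gen hr hw0 hw (fun k => D.hrec k y) (D.hgen y h1 h2) (D.hv y hy h1 h2)]
    have e : ((y : ℂ) = r * (w + w⁻¹)) ↔ y = y₀ := by
      rw [← hy₀]; exact Complex.ofReal_inj
    simp only [e]
    by_cases hyy : y = y₀
    · subst hyy
      have hw2 : w ^ 2 ≠ 1 := (D.hv y hy h1 h2 w hw0 hy₀).2
      simp [hw2, h1, h2]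
    · simp [hyy]
  set c := fun y => contr m r w u y with hc
  set g : ℝ → ℂ := fun y => if (w ^ 2 ≠ 1 ∧ y₀ ≠ r^2 + 1 ∧ y₀ ≠ -σ) ∧ y = y₀ then (m : ℂ) * (u 0 y₀ : ℝ) else 0 with hg
  have hcg : ∀ y, c y = (if y = r^2+1 then c (r^2+1) else 0) + (if y = -σ then c (-σ) else 0) + (if y ∈ Y then g y else 0) := by
    intro y
    by_cases h1 : y = r^2+1
    · subst h1
      have : g (r^2+1) = 0 := by
        rw [hg]; simp only
        rw [if_neg]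
        rintro ⟨⟨_, h, _⟩, h'⟩
        exact h h'.symm
      simp [hne, this]
    · by_cases h2 : y = -σ
      · subst h2
        have : g (-σ) = 0 := by
          rw [hg]; simp only
          rw [if_neg]
          rintro ⟨⟨_, _, h⟩, h'⟩
          exact h h'.symm
        simp [this, h1]
      · simp only [h1, h2, if_false, zero_add]
        by_cases hy : y ∈ Y
        · rw [if_pos hy]; exact hgen y hy h1 h2
        · rw [if_neg hy]; exact hzero y hy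
  have hfin : ∑ y ∈ Y, c y = ∑ y ∈ Y, ((if y = r^2+1 then c (r^2+1) else 0) + (if y = -σ then c (-σ) else 0) + g y) := by
    refine Finset.sum_congr rfl fun y hy => ?_
    conv_lhs => rw [hcg y]
    rw [if_pos hy]
  rw [hfin, Finset.sum_add_distrib, Finset.sum_add_distrib, Finset.sum_ite_eq', Finset.sum_ite_eq']
  have e1 : (if (r^2+1) ∈ Y then c (r^2+1) else 0) = c (r^2+1) := by
    split_ifs with h
    · rfl
    · exact (hzero _ h).symm
  have e2 : (if (-σ) ∈ Y then c (-σ) else 0) = c (-σ) := by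
    split_ifs with h
    · rfl
    · exact (hzero _ h).symm
  rw [e1, e2]
  congr 1
  by_cases hcond : w ^ 2 ≠ 1 ∧ y₀ ≠ r^2 + 1 ∧ y₀ ≠ -σ
  · simp only [hg, if_pos hcond]
    have : ∀ y : ℝ, ((w ^ 2 ≠ 1 ∧ y₀ ≠ r^2 + 1 ∧ y₀ ≠ -σ) ∧ y = y₀) ↔ y = y₀ := fun y => by tauto
    simp only [this, Finset.sum_ite_eq']
    split_ifs with h
    · rfl
    · rw [D.hY 0 y₀ h]; simp
  · simp only [hg, if_neg hcond]
    apply Finset.sum_eq_zero
    intro y _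
    rw [if_neg]; tauto

theorem formula_ne {m : ℕ} {r s t N : ℝ} {Y : Finset ℝ} {u : ℕ → ℝ → ℝ} (D : Data m r (s+t) N Y u)
    (hs : 0 < s) (ht : 0 < t) (hst : s ≠ t) (hrst : s * t = r ^ 2) (hr1 : r ^ 2 ≠ 1) (hev : Even m) :
    ∃ κ : ℝ, ∀ w : ℂ, w ≠ 0 → w ^ m = 1 → w ^ 2 ≠ 1 → ∀ y : ℝ, (y : ℂ) = r * (w + w⁻¹) → y ≠ r^2 + 1 → y ≠ -(s+t) →
      m * u 0 y * ((r^2 + 1 - y) * (s + t + y)) = κ * (4 * r^2 - y^2) := by
  have hr := D.hr
  obtain ⟨p, q, hpq⟩ := two_term (a := r^2) (b := 1) hr1 (fun k => u k (r^2+1)) (fun k => by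
    rw [D.hrec]; ring)
  obtain ⟨f, g, hfg⟩ := two_term (a := -s) (b := -t) (fun h => hst (by linarith)) (fun k => u k (-(s+t))) (fun k => by
    rw [D.hrec]; rw [← hrst]; ring)
  set P := p * ((r^2/r)^m - 1) with hP
  set Q := q * ((1/r)^m - 1) with hQ
  set F := f * ((-s/r)^m - 1) with hF
  set G := g * ((-t/r)^m - 1) with hG
  have key : ∀ w : ℂ, w ≠ 0 → w ^ m = 1 → ∀ y : ℝ, (y : ℂ) = r * (w + w⁻¹) →
      (if w ^ 2 ≠ 1 ∧ y ≠ r^2 + 1 ∧ y ≠ -(s+t) then (m : ℝ) * u 0 y else 0) * ((r^2 + 1 - y) * (s + t + y)) =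
      2 * N * ((r^2 + 1 - y) * (s + t + y)) - (P * (y - 2) + Q * (y - 2 * r^2)) * (s + t + y)
        + (F * (y + 2 * t) + G * (y + 2 * s)) * (r^2 + 1 - y) := by
    intro w hw0 hw y hy
    have h0 := contr_split D (by linarith) hw0 hw hy
    have h1 := contr_two (y := r^2+1) hr hw0 hw (by ring) hpq hy
    have h2 := contr_two (y := -(s+t)) hr hw0 hw (by rw [← hrst]; ring) hfg hy
    have h3 : (if w ^ 2 ≠ 1 ∧ y ≠ r^2 + 1 ∧ y ≠ -(s+t) then (m : ℂ) * (u 0 y : ℝ) else 0)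
        = ((if w ^ 2 ≠ 1 ∧ y ≠ r^2 + 1 ∧ y ≠ -(s+t) then (m : ℝ) * u 0 y else 0 : ℝ) : ℂ) := by
      split_ifs <;> simp
    rw [h3] at h0
    rw [← hP, ← hQ] at h1
    rw [← hF, ← hG] at h2
    set I : ℝ := (if w ^ 2 ≠ 1 ∧ y ≠ r^2 + 1 ∧ y ≠ -(s+t) then (m : ℝ) * u 0 y else 0)
    have h4 : ((I * ((r^2 + 1 - y) * (s + t + y)) : ℝ) : ℂ) =
      ((2 * N * ((r^2 + 1 - y) * (s + t + y)) - (P * (y - 2) + Q * (y - 2 * r^2)) * (s + t + y)
        + (F * (y + 2 * t) + G * (y + 2 * s)) * (r^2 + 1 - y) : ℝ) : ℂ) := by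
      push_cast at h1 h2 h0 ⊢
      linear_combination (-((r:ℂ)^2 + 1 - y) * (s + t + y)) * h0 - (s + t + y) * h1 + ((r:ℂ)^2 + 1 - y) * h2
    exact_mod_cast h4
  have k1 := key 1 one_ne_zero (one_pow _) (2 * r) (by push_cast; norm_num; ring)
  have k2 := key (-1) (by norm_num) hev.neg_one_pow (-2 * r) (by push_cast; norm_num; ring)
  rw [if_neg (by norm_num)] at k1 k2
  refine ⟨2 * N + P + Q + F + G, fun w hw0 hw hw2 y hy h1 h2 => ?_⟩
  have k3 := key w hw0 hw y hy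
  rw [if_pos ⟨hw2, h1, h2⟩] at k3
  rw [k3]
  have hr4 : (4 * r) ≠ 0 := by positivity
  apply mul_left_cancel₀ hr4
  linear_combination (-(y + 2 * r)) * k1 + (y - 2 * r) * k2

theorem formula_eq {m : ℕ} {s N : ℝ} {Y : Finset ℝ} {u : ℕ → ℝ → ℝ} (D : Data m s (s+s) N Y u)
    (hr1 : s ^ 2 ≠ 1) (hneg : u 1 (-(s+s)) = -s * u 0 (-(s+s))) (hodd : Odd m → u 0 (-(s+s)) = 0) :
    ∃ κ : ℝ, ∀ w : ℂ, w ≠ 0 → w ^ m = 1 → w ^ 2 ≠ 1 → ∀ y : ℝ, (y : ℂ) = s * (w + w⁻¹) → y ≠ s^2 + 1 → y ≠ -(s+s) →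
      m * u 0 y * (s^2 + 1 - y) = κ * (2 * s - y) := by
  have hr := D.hr
  have hs0 : s ≠ 0 := hr.ne'
  obtain ⟨p, q, hpq⟩ := two_term (a := s^2) (b := 1) hr1 (fun k => u k (s^2+1)) (fun k => by
    rw [D.hrec]; ring)
  set P := p * ((s^2/s)^m - 1) with hP
  set Q := q * ((1/s)^m - 1) with hQ
  have hu : ∀ k, u k (-(s+s)) = (-s)^k * u 0 (-(s+s)) := by
    intro k
    induction k using Nat.twoStepInduction with
    | zero => simp
    | one => rw [hneg]; ring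
    | more k ih1 ih2 => rw [D.hrec, ih1, ih2]; ring
  have hcz : ∀ w : ℂ, w ≠ 0 → w ^ m = 1 → w ≠ -1 → contr m s w u (-(s+s)) = 0 := by
    intro w hw0 hw hwn
    have e : contr m s w u (-(s+s)) = (u 0 (-(s+s)) : ℝ) * (∑ k ∈ range m, (-w)^k + ∑ k ∈ range m, (-w⁻¹)^k) := by
      unfold contr
      rw [← Finset.sum_add_distrib, Finset.mul_sum]
      refine Finset.sum_congr rfl fun k _ => ?_
      rw [hu]
      have : ((-s)^k * u 0 (-(s+s)) / s^k : ℝ) = (-1)^k * u 0 (-(s+s)) := by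
        rw [neg_pow s k]; field_simp
      rw [this, neg_pow w, neg_pow w⁻¹]
      push_cast; ring
    rcases Nat.even_or_odd m with hm | hm
    · rw [e, sum_root (by rw [hm.neg_pow, hw]), sum_root (by rw [hm.neg_pow, inv_pow, hw, inv_one]), if_neg, if_neg]
      · simp
      · intro h; apply hwn
        have : w⁻¹ = -1 := by linear_combination -h
        rw [← inv_inv w, this]; norm_num
      · intro h; apply hwn; linear_combination -h
    · rw [e, hodd hm]; simp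
  have key : ∀ w : ℂ, w ≠ 0 → w ^ m = 1 → w ≠ -1 → ∀ y : ℝ, (y : ℂ) = s * (w + w⁻¹) →
      (if w ^ 2 ≠ 1 ∧ y ≠ s^2 + 1 ∧ y ≠ -(s+s) then (m : ℝ) * u 0 y else 0) * (s^2 + 1 - y) =
      2 * N * (s^2 + 1 - y) - (P * (y - 2) + Q * (y - 2 * s^2)) := by
    intro w hw0 hw hwn y hy
    have h0 := contr_split D (by linarith) hw0 hw hy
    have h1 := contr_two (y := s^2+1) hr hw0 hw (by ring) hpq hy
    have h2 := hcz w hw0 hw hwn
    have h3 : (if w ^ 2 ≠ 1 ∧ y ≠ s^2 + 1 ∧ y ≠ -(s+s) then (m : ℂ) * (u 0 y : ℝ) else 0)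
        = ((if w ^ 2 ≠ 1 ∧ y ≠ s^2 + 1 ∧ y ≠ -(s+s) then (m : ℝ) * u 0 y else 0 : ℝ) : ℂ) := by
      split_ifs <;> simp
    rw [h3, h2] at h0
    rw [← hP, ← hQ] at h1
    set I : ℝ := (if w ^ 2 ≠ 1 ∧ y ≠ s^2 + 1 ∧ y ≠ -(s+s) then (m : ℝ) * u 0 y else 0)
    have h4 : ((I * (s^2 + 1 - y) : ℝ) : ℂ) =
      ((2 * N * (s^2 + 1 - y) - (P * (y - 2) + Q * (y - 2 * s^2)) : ℝ) : ℂ) := by
      push_cast at h1 h0 ⊢
      linear_combination (-((s:ℂ)^2 + 1 - y)) * h0 - h1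
    exact_mod_cast h4
  have k1 := key 1 one_ne_zero (one_pow _) (by norm_num) (2 * s) (by push_cast; norm_num; ring)
  rw [if_neg (by norm_num)] at k1
  refine ⟨2 * N + P + Q, fun w hw0 hw hw2 y hy h1 h2 => ?_⟩
  have hwn : w ≠ -1 := by rintro rfl; exact hw2 (by norm_num)
  have k3 := key w hw0 hw hwn y hy
  rw [if_pos ⟨hw2, h1, h2⟩] at k3
  rw [k3]
  linear_combination -k1

end H24.FHScal
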