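import Cfsg.Agent.Lib.H96.FrDef

/-! Frame stabilisers: the family of permutations (piece P5b). -/

set_option autoImplicit false

namespace H24.FrFam

open Matrix H96.Fr

variable {ι F : Type*} [Fintype ι] [DecidableEq ι] [Field F]

/-- `g` is monomial with permutation `σ` -/
def MP (g : (ι → F) ≃ₗ[F] (ι → F)) (σ : Equiv.Perm ι) : Prop :=
  ∀ i, g (e i) = e (σ i) ∨ g (e i) = - e (σ i)

theorem e_ne_zero (i : ι) : (e i : ι → F) ≠ 0 := by
  intro h
  have := congrFun h i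
  simp [e] at this

theorem e_inj {i j : ι} (h : (e i : ι → F) = e j ∨ (e i : ι → F) = - e j) : i = j := by
  by_contra hne
  rcases h with h | h
  · have := congrFun h i
    simp [e, Pi.single_apply, hne] at this
  · have := congrFun h i
    simp [e, Pi.single_apply, hne] at this

theorem ext_e {f g : (ι → F) ≃ₗ[F] (ι → F)} (h : ∀ i, f (e i) = g (e i)) : f = g := by
  refine (Pi.basisFun F ι).ext' fun i => ?_
  simpa [e] using h i

theorem sg_e (i j k : ι) : sg i j (e k : ι → F) = if k = i ∨ k = j then - e k else e k := by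
  funext l
  rw [sg_apply]
  by_cases hl : l = k
  · subst hl
    by_cases h : l = i ∨ l = j <;> simp [h]
  · by_cases h : k = i ∨ k = j <;> by_cases h' : l = i ∨ l = j <;> simp [h, h', e, Pi.single_apply, hl]

theorem mon_mul {g h : (ι → F) ≃ₗ[F] (ι → F)} (hg : Mon g) (hh : Mon h) : Mon (g * h) := by
  intro i
  obtain ⟨j, hj⟩ := hh i
  obtain ⟨k, hk⟩ := hg j
  refine ⟨k, ?_⟩
  show g (h (e i)) = _ ∨ g (h (e i)) = _
  rcases hj with hj | hj <;> rcases hk with hk | hk <;> rw [hj]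
  · exact Or.inl hk
  · exact Or.inr hk
  · right; rw [map_neg, hk]
  · left; rw [map_neg, hk, neg_neg]

theorem exists_mp {g : (ι → F) ≃ₗ[F] (ι → F)} (hg : Mon g) : ∃ σ, MP g σ := by
  choose f hf using hg
  have hinj : Function.Injective f := by
    intro i j hij
    apply e_inj (F := F)
    rcases hf i with h1 | h1 <;> rcases hf j with h2 | h2
    · left; apply g.injective; rw [h1, h2, hij]
    · right; apply g.injective; rw [h1, map_neg, h2, hij, neg_neg]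
    · right; apply g.injective; rw [h1, map_neg, h2, hij]
    · left; apply g.injective; rw [h1, h2, hij]
  exact ⟨Equiv.ofBijective f (Finite.injective_iff_bijective.1 hinj), fun i => hf i⟩

theorem MP.mon {g : (ι → F) ≃ₗ[F] (ι → F)} {σ : Equiv.Perm ι} (h : MP g σ) : Mon g :=
  fun i => ⟨σ i, h i⟩

theorem MP.mul {g g' : (ι → F) ≃ₗ[F] (ι → F)} {σ τ : Equiv.Perm ι} (h : MP g σ) (h' : MP g' τ) :
    MP (g * g') (σ * τ) := by
  intro i
  show g (g' (e i)) = e (σ (τ i)) ∨ g (g' (e i)) = - e (σ (τ i))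
  rcases h' i with hj | hj <;> rcases h (τ i) with hk | hk <;> rw [hj]
  · exact Or.inl hk
  · exact Or.inr hk
  · right; rw [map_neg, hk]
  · left; rw [map_neg, hk, neg_neg]

theorem MP.inv {g : (ι → F) ≃ₗ[F] (ι → F)} {σ : Equiv.Perm ι} (h : MP g σ) : MP g⁻¹ σ⁻¹ := by
  intro i
  have h1 : ∀ x, g⁻¹ (g x) = x := fun x => by
    rw [← LinearEquiv.mul_apply, inv_mul_cancel]; rfl
  have h2 := h (σ⁻¹ i)
  rw [show σ (σ⁻¹ i) = i from σ.apply_symm_apply i] at h2
  rcases h2 with h2 | h2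
  · left; rw [← h2, h1]
  · right
    have : (e i : ι → F) = g (- e (σ⁻¹ i)) := by rw [map_neg, h2, neg_neg]
    rw [this, h1]

theorem MP.unique {g : (ι → F) ≃ₗ[F] (ι → F)} {σ τ : Equiv.Perm ι} (h : MP g σ) (h' : MP g τ) :
    σ = τ := by
  apply Equiv.ext
  intro i
  apply e_inj (F := F)
  rcases h i with h1 | h1 <;> rcases h' i with h2 | h2 <;> rw [h1] at h2
  · exact Or.inl h2
  · exact Or.inr h2
  · right; rw [← h2, neg_neg]
  · left; exact neg_injective h2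

theorem mon_inv {g : (ι → F) ≃ₗ[F] (ι → F)} (hg : Mon g) : Mon g⁻¹ := by
  obtain ⟨σ, hσ⟩ := exists_mp hg
  exact hσ.inv.mon

theorem mon_one : Mon (1 : (ι → F) ≃ₗ[F] (ι → F)) := fun i => ⟨i, Or.inl rfl⟩

theorem mp_one : MP (1 : (ι → F) ≃ₗ[F] (ι → F)) 1 := fun _ => Or.inl rfl

theorem mp_sg (i j : ι) : MP (sg i j : (ι → F) ≃ₗ[F] (ι → F)) 1 := by
  intro k
  rw [sg_e]
  by_cases h : k = i ∨ k = j
  · right; rw [if_pos h]; rfl
  · left; rw [if_neg h]; rfl

theorem sg_sq (i j : ι) : (sg i j : (ι → F) ≃ₗ[F] (ι → F)) * sg i j = 1 := by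
  apply LinearEquiv.ext
  intro x
  exact sgm_sgm i j x

theorem sg_inv (i j : ι) : (sg i j : (ι → F) ≃ₗ[F] (ι → F))⁻¹ = sg i j :=
  inv_eq_of_mul_eq_one_left (sg_sq i j)

theorem MP.conj_sg {g : (ι → F) ≃ₗ[F] (ι → F)} {σ : Equiv.Perm ι} (h : MP g σ) (a b : ι) :
    g * sg a b * g⁻¹ = sg (σ a) (σ b) := by
  rw [mul_inv_eq_iff_eq_mul]
  apply ext_e
  intro k
  show g (sg a b (e k)) = sg (σ a) (σ b) (g (e k))
  rw [sg_e]
  have hk : (σ k = σ a ∨ σ k = σ b) ↔ (k = a ∨ k = b) := by simp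
  by_cases hc : k = a ∨ k = b
  · rw [if_pos hc, map_neg]
    rcases h k with h1 | h1 <;> rw [h1]
    · rw [sg_e, if_pos (hk.2 hc)]
    · rw [map_neg, sg_e, if_pos (hk.2 hc)]
  · rw [if_neg hc]
    rcases h k with h1 | h1 <;> rw [h1]
    · rw [sg_e, if_neg (fun h => hc (hk.1 h))]
    · rw [map_neg, sg_e, if_neg (fun h => hc (hk.1 h))]

theorem sg_inj (h2 : (2 : F) ≠ 0) {i j k l : ι} (h : (sg i j : (ι → F) ≃ₗ[F] (ι → F)) = sg k l) :
    ({i, j} : Finset ι) = {k, l} := by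
  ext m
  have h1 := congrArg (fun f : (ι → F) ≃ₗ[F] (ι → F) => f (e m)) h
  simp only [sg_e] at h1
  have hne : (e m : ι → F) ≠ - e m := by
    intro h3
    have h4 : (2 : F) • (e m : ι → F) = 0 := by rw [two_smul]; nth_rewrite 2 [h3]; simp
    rcases smul_eq_zero.1 h4 with h5 | h5
    · exact h2 h5
    · exact e_ne_zero m h5
  by_cases ha : m = i ∨ m = j <;> by_cases hb : m = k ∨ m = l
  · simp [ha, hb]
  · rw [if_pos ha, if_neg hb] at h1
    exact absurd h1.symm hne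
  · rw [if_neg ha, if_pos hb] at h1
    exact absurd h1 hne
  · simp [ha, hb]

theorem sg_symm (i j : ι) : (sg i j : (ι → F) ≃ₗ[F] (ι → F)) = sg j i := by
  apply ext_e
  intro k
  rw [sg_e, sg_e]
  simp only [or_comm]

theorem sg_comm (i j k l : ι) :
    (sg i j : (ι → F) ≃ₗ[F] (ι → F)) * sg k l = sg k l * sg i j := by
  have := (mp_sg (F := F) i j).conj_sg k l
  rw [Equiv.Perm.one_apply, Equiv.Perm.one_apply] at this
  rw [mul_inv_eq_iff_eq_mul] at this
  exact this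

/-- The involution halfway between two involutions whose product has odd order. -/
theorem midpoint {H : Type*} [Group H] {x y : H} (hx : x * x = 1) (hy : y * y = 1)
    (ho : Odd (orderOf (x * y))) : ∃ n : ℕ,
      ((x * y) ^ n * x * ((x * y) ^ n)⁻¹) * x * ((x * y) ^ n * x * ((x * y) ^ n)⁻¹) = y := by
  obtain ⟨q, hq⟩ := ho
  refine ⟨q * (q + 1), ?_⟩
  have hxi : x⁻¹ = x := inv_eq_of_mul_eq_one_left hx
  have hyi : y⁻¹ = y := inv_eq_of_mul_eq_one_left hy
  generalize hc : x * y = c at hq ⊢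
  have h1 : x * c⁻¹ * x⁻¹ = c := by
    rw [← hc, _root_.mul_inv_rev, hxi, hyi]
    rw [mul_assoc, mul_assoc, hx, mul_one]
  have h2 : ∀ n : ℕ, x * (c ^ n)⁻¹ * x = c ^ n := by
    intro n
    nth_rewrite 2 [← hxi]
    rw [← inv_pow, ← conj_pow, h1]
  have h3 : c ^ (4 * (q * (q + 1)) + 1) = 1 := by
    have : 4 * (q * (q + 1)) + 1 = (2 * q + 1) * (2 * q + 1) := by ring
    rw [this, ← hq, pow_mul, pow_orderOf_eq_one, one_pow]
  generalize hr : q * (q + 1) = r at h3 ⊢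
  have h4 : (c ^ r * x * (c ^ r)⁻¹) * x * (c ^ r * x * (c ^ r)⁻¹) =
      c ^ r * (x * (c ^ r)⁻¹ * x) * c ^ r * (x * (c ^ r)⁻¹ * x) * x := by
    simp only [mul_assoc, hx, mul_one]
  rw [h4, h2]
  have h5 : c ^ r * c ^ r * c ^ r * c ^ r = c⁻¹ := by
    rw [← pow_add, ← pow_add, ← pow_add, eq_inv_iff_mul_eq_one, ← pow_succ]
    rw [← h3]; congr 1; ring
  rw [h5, ← hc, _root_.mul_inv_rev, hxi, hyi, mul_assoc, hx, mul_one]

/-- membership in the set of swapping involutions -/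
def InSS (K : Subgroup ((ι → F) ≃ₗ[F] (ι → F))) (k₀ s : (ι → F) ≃ₗ[F] (ι → F)) : Prop :=
  (∃ k ∈ K, ∃ i j, i ≠ j ∧ s = k * sg i j * k⁻¹) ∧ Mon (k₀⁻¹ * s)

section
variable {K : Subgroup ((ι → F) ≃ₗ[F] (ι → F))} {k₀ : (ι → F) ≃ₗ[F] (ι → F)}

theorem InSS.sq {s : (ι → F) ≃ₗ[F] (ι → F)} (h : InSS K k₀ s) : s * s = 1 := by
  obtain ⟨⟨k, hk, i, j, hij, rfl⟩, -⟩ := h
  have : k * sg i j * k⁻¹ * (k * sg i j * k⁻¹) = k * (sg i j * sg i j) * k⁻¹ := by group
  rw [this, sg_sq]; group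

theorem InSS.inv {s : (ι → F) ≃ₗ[F] (ι → F)} (h : InSS K k₀ s) : s⁻¹ = s :=
  inv_eq_of_mul_eq_one_left h.sq

theorem InSS.mem (D : Dat K) {s : (ι → F) ≃ₗ[F] (ι → F)} (h : InSS K k₀ s) : s ∈ K := by
  obtain ⟨⟨k, hk, i, j, hij, rfl⟩, -⟩ := h
  exact K.mul_mem (K.mul_mem hk (D.sg i j hij)) (K.inv_mem hk)

theorem InSS.mon' {s : (ι → F) ≃ₗ[F] (ι → F)} (h : InSS K k₀ s) : Mon (s * k₀) := by
  have := mon_inv h.2
  rwa [_root_.mul_inv_rev, h.inv, inv_inv] at this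

theorem conjc {k : (ι → F) ≃ₗ[F] (ι → F)} (a b : (ι → F) ≃ₗ[F] (ι → F)) :
    (k * a * k⁻¹) * (k * b * k⁻¹) = k * (a * b) * k⁻¹ := by group

/-- a monomial involution commutes with some `sg a b` -/
theorem exists_comm (hN : 5 ≤ Fintype.card ι) {h : (ι → F) ≃ₗ[F] (ι → F)} (hm : Mon h)
    (h2 : h * h = 1) : ∃ a b : ι, a ≠ b ∧ h * sg a b * h⁻¹ = sg a b := by
  obtain ⟨σ, hσ⟩ := exists_mp hm
  have hσ2 : σ * σ = 1 := (hσ.mul hσ).unique (by rw [h2]; exact mp_one)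
  have hs : ∀ a, σ (σ a) = a := fun a => congrArg (fun f : Equiv.Perm ι => f a) hσ2
  have hne : Nonempty ι := Fintype.card_pos_iff.1 (by omega)
  obtain ⟨a⟩ := hne
  obtain ⟨b, hb⟩ := Fintype.exists_ne_of_one_lt_card (by omega : 1 < Fintype.card ι) a
  by_cases ha : σ a = a
  · by_cases hb' : σ b = b
    · exact ⟨a, b, hb.symm, by rw [hσ.conj_sg, ha, hb']⟩
    · exact ⟨b, σ b, Ne.symm hb', by rw [hσ.conj_sg, hs, sg_symm]⟩
  · exact ⟨a, σ a, Ne.symm ha, by rw [hσ.conj_sg, hs, sg_symm]⟩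

/-- key step of (B): conjugates of `d_S`, `|S| = 4`. -/
theorem four_step (D : Dat K) (hN : 5 ≤ Fintype.card ι) (h4 : C4 K) (ht : T2 K)
    {k : (ι → F) ≃ₗ[F] (ι → F)} (hk : k ∈ K) {i j c d : ι} (hn : [i, j, c, d].Nodup)
    (hm : Mon (k * (sg i j * sg c d) * k⁻¹)) : Mon k := by
  have hsq : (k * (sg i j * sg c d) * k⁻¹) * (k * (sg i j * sg c d) * k⁻¹) = 1 := by
    rw [conjc]
    have : (sg i j * sg c d : (ι → F) ≃ₗ[F] (ι → F)) * (sg i j * sg c d) = 1 := by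
      nth_rewrite 2 [sg_comm i j c d]
      rw [mul_assoc, ← mul_assoc (sg c d), sg_sq, one_mul, sg_sq]
    rw [this]; group
  obtain ⟨a, b, hab, hc⟩ := exists_comm hN hm hsq
  have hK : k⁻¹ * sg a b * k ∈ K := K.mul_mem (K.mul_mem (K.inv_mem hk) (D.sg a b hab)) hk
  have h5 : Mon (k⁻¹ * sg a b * k) := by
    refine h4 _ hK i j c d hn ?_
    rw [mul_inv_eq_iff_eq_mul] at hc
    have h6 : k * (sg i j * sg c d) * k⁻¹ * sg a b * k = sg a b * (k * (sg i j * sg c d) * k⁻¹) * k := by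
      rw [hc]
    have h7 : k⁻¹ * (k * (sg i j * sg c d) * k⁻¹ * sg a b * k) =
        (sg i j * sg c d) * (k⁻¹ * sg a b * k) := by group
    have h8 : k⁻¹ * (sg a b * (k * (sg i j * sg c d) * k⁻¹) * k) =
        (k⁻¹ * sg a b * k) * (sg i j * sg c d) := by group
    rw [← h7, ← h8, h6]
  have h9 : Mon k⁻¹ := by
    refine ht _ (K.inv_mem hk) a b hab ?_
    rwa [inv_inv]
  simpa using mon_inv h9

theorem share {i j d : ι} (hij : i ≠ j) (hid : i ≠ d) (hjd : j ≠ d) :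
    (sg i j : (ι → F) ≃ₗ[F] (ι → F)) * sg i d = sg j d := by
  apply LinearEquiv.ext
  intro x
  funext k
  show sg i j (sg i d x) k = sg j d x k
  rw [sg_apply, sg_apply, sg_apply]
  by_cases h1 : k = i
  · subst h1; simp [hij, hid]
  · by_cases h3 : k = j
    · subst h3; simp [h1, hjd]
    · by_cases h4 : k = d
      · subst h4; simp [h1, h3]
      · simp [h1, h3, h4]

/-- (B) the product of two members of `SS` has odd order -/
theorem odd_mul (D : Dat K) (h2 : (2 : F) ≠ 0) (hN : 5 ≤ Fintype.card ι) (h4 : C4 K) (ht : T2 K)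
    (hodd : ∀ k ∈ K, ¬ Mon k → ∀ i j a b : ι, i ≠ j → a ≠ b →
      Odd (orderOf (sg i j * (k * sg a b * k⁻¹))))
    (hk : k₀ ∈ K) (hk' : ¬ Mon k₀) {s s' : (ι → F) ≃ₗ[F] (ι → F)} (hs : InSS K k₀ s)
    (hs' : InSS K k₀ s') : Odd (orderOf (s * s')) := by
  have hmon : Mon (s * s') := by
    have := mon_mul hs.mon' hs'.2
    rwa [show s * k₀ * (k₀⁻¹ * s') = s * s' by group] at this
  have hmon' : Mon (k₀⁻¹ * (s * s') * k₀) := by
    have := mon_mul hs.2 hs'.mon'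
    rwa [show k₀⁻¹ * s * (s' * k₀) = k₀⁻¹ * (s * s') * k₀ by group] at this
  obtain ⟨⟨k, hkK, i, j, hij, hse⟩, -⟩ := hs
  obtain ⟨⟨k', hkK', a, b, hab, hse'⟩, -⟩ := hs'
  by_cases hm : Mon (k⁻¹ * k')
  · obtain ⟨σ, hσ⟩ := exists_mp hm
    obtain ⟨c, hc⟩ : ∃ c, c = σ a := ⟨_, rfl⟩
    obtain ⟨d, hd⟩ : ∃ d, d = σ b := ⟨_, rfl⟩
    have hcd : c ≠ d := by rw [hc, hd]; exact fun h => hab (σ.injective h)
    have hse2 : s' = k * sg c d * k⁻¹ := by
      rw [hse', hc, hd, ← hσ.conj_sg a b]; group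
    have hss : s * s' = k * (sg i j * sg c d) * k⁻¹ := by rw [hse, hse2, conjc]
    -- common contradiction
    have fin1 : ∀ e' f : ι, e' ≠ f → s * s' = k * sg e' f * k⁻¹ → False := by
      intro e' f hef h1
      have m1 : Mon k := ht k hkK e' f hef (by rw [← h1]; exact hmon)
      have m2 : Mon (k₀⁻¹ * k) := by
        refine ht _ (K.mul_mem (K.inv_mem hk) hkK) e' f hef ?_
        rw [show k₀⁻¹ * k * sg e' f * (k₀⁻¹ * k)⁻¹ = k₀⁻¹ * (k * sg e' f * k⁻¹) * k₀ by group,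
          ← h1]
        exact hmon'
      apply hk'
      have := mon_mul m1 (mon_inv m2)
      rwa [show k * (k₀⁻¹ * k)⁻¹ = k₀ by group] at this
    have htriv : ∀ x : (ι → F) ≃ₗ[F] (ι → F), s * s' = k * (x * x) * k⁻¹ → x * x = 1 →
        Odd (orderOf (s * s')) := by
      intro x h1 h3
      rw [h1, h3, show k * 1 * k⁻¹ = (1 : (ι → F) ≃ₗ[F] (ι → F)) by group, orderOf_one]
      exact odd_one
    by_cases hic : i = c
    · by_cases hjd : j = d
      · exact htriv (sg i j) (by rw [hss, hic, hjd]) (sg_sq _ _)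
      · exfalso
        refine fin1 j d hjd ?_
        rw [hss, ← hic, share hij (by rw [hic]; exact hcd) hjd]
    · by_cases hid : i = d
      · by_cases hjc : j = c
        · exact htriv (sg i j) (by rw [hss, ← hid, ← hjc, sg_symm j i]) (sg_sq _ _)
        · exfalso
          refine fin1 j c hjc ?_
          rw [hss, ← hid, sg_symm c i, share hij hic hjc]
      · by_cases hjc : j = c
        · exfalso
          refine fin1 i d hid ?_
          rw [hss, ← hjc, sg_symm i j, share hij.symm (by rw [hjc]; exact hcd) hid]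
        · by_cases hjd : j = d
          · exfalso
            refine fin1 i c hic ?_
            rw [hss, ← hjd, sg_symm i j, sg_symm c j, share hij.symm hjc hic]
          · exfalso
            have hn : [i, j, c, d].Nodup := by
              simp [hij, hic, hid, hjc, hjd, hcd]
            have m1 : Mon k := four_step D hN h4 ht hkK hn (by rw [← hss]; exact hmon)
            have m2 : Mon (k₀⁻¹ * k) := by
              refine four_step D hN h4 ht (K.mul_mem (K.inv_mem hk) hkK) hn ?_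
              rw [show k₀⁻¹ * k * (sg i j * sg c d) * (k₀⁻¹ * k)⁻¹ =
                k₀⁻¹ * (k * (sg i j * sg c d) * k⁻¹) * k₀ by group, ← hss]
              exact hmon'
            apply hk'
            have := mon_mul m1 (mon_inv m2)
            rwa [show k * (k₀⁻¹ * k)⁻¹ = k₀ by group] at this
  · have h1 := hodd _ (K.mul_mem (K.inv_mem hkK) hkK') hm i j a b hij hab
    have h3 : s * s' = MulAut.conj k (sg i j * (k⁻¹ * k' * sg a b * (k⁻¹ * k')⁻¹)) := by
      rw [hse, hse', MulAut.conj_apply]; group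
    rw [h3, MulEquiv.orderOf_eq]
    exact h1

/-- (A): existence of a member of `SS` exchanging `d_ij` and `k₀ d_cd k₀⁻¹`; it is a word in the two
involutions. -/
theorem exists_ss (D : Dat K) (ht : T2 K)
    (hodd : ∀ k ∈ K, ¬ Mon k → ∀ i j a b : ι, i ≠ j → a ≠ b →
      Odd (orderOf (sg i j * (k * sg a b * k⁻¹))))
    (hk : k₀ ∈ K) (hk' : ¬ Mon k₀) {i j c d : ι} (hij : i ≠ j) (hcd : c ≠ d) :
    ∃ s, InSS K k₀ s ∧ s * sg i j * s = k₀ * sg c d * k₀⁻¹ ∧
      ∀ h : (ι → F) ≃ₗ[F] (ι → F), h * sg i j = sg i j * h →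
        h * (k₀ * sg c d * k₀⁻¹) = (k₀ * sg c d * k₀⁻¹) * h → h * s = s * h := by
  have hy : (k₀ * sg c d * k₀⁻¹) * (k₀ * sg c d * k₀⁻¹) = 1 := by
    rw [conjc, sg_sq]; group
  have hyK : k₀ * sg c d * k₀⁻¹ ∈ K := K.mul_mem (K.mul_mem hk (D.sg c d hcd)) (K.inv_mem hk)
  obtain ⟨n, hn⟩ := midpoint (sg_sq i j) hy (hodd k₀ hk hk' i j c d hij hcd)
  generalize hz : (sg i j * (k₀ * sg c d * k₀⁻¹)) ^ n = z at hn
  have hzK : z ∈ K := by rw [← hz]; exact K.pow_mem (K.mul_mem (D.sg i j hij) hyK) n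
  have hs2 : (z * sg i j * z⁻¹) * (z * sg i j * z⁻¹) = 1 := by rw [conjc, sg_sq]; group
  have hsi : (z * sg i j * z⁻¹)⁻¹ = z * sg i j * z⁻¹ := inv_eq_of_mul_eq_one_left hs2
  refine ⟨z * sg i j * z⁻¹, ⟨⟨z, hzK, i, j, hij, rfl⟩, ?_⟩, hn, ?_⟩
  · refine ht _ (K.mul_mem (K.inv_mem hk) (K.mul_mem (K.mul_mem hzK (D.sg i j hij))
      (K.inv_mem hzK))) i j hij ?_
    rw [_root_.mul_inv_rev, hsi]
    rw [show k₀⁻¹ * (z * sg i j * z⁻¹) * sg i j * (z * sg i j * z⁻¹ * k₀⁻¹⁻¹) =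
      k₀⁻¹ * ((z * sg i j * z⁻¹) * sg i j * (z * sg i j * z⁻¹)) * k₀ by group, hn]
    rw [show k₀⁻¹ * (k₀ * sg c d * k₀⁻¹) * k₀ = sg c d by group]
    exact (mp_sg c d).mon
  · intro h h1 h3
    have hc1 : Commute h (sg i j) := h1
    have hc2 : Commute h (k₀ * sg c d * k₀⁻¹) := h3
    have hcz : Commute h z := by rw [← hz]; exact (hc1.mul_right hc2).pow_right n
    exact ((hcz.mul_right hc1).mul_right hcz.inv_right).eq

/-- (C): uniqueness. -/
theorem unique_ss (D : Dat K) (h2 : (2 : F) ≠ 0) (hN : 5 ≤ Fintype.card ι) (h4 : C4 K) (ht : T2 K)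
    (hodd : ∀ k ∈ K, ¬ Mon k → ∀ i j a b : ι, i ≠ j → a ≠ b →
      Odd (orderOf (sg i j * (k * sg a b * k⁻¹))))
    (hk : k₀ ∈ K) (hk' : ¬ Mon k₀) {s s' : (ι → F) ≃ₗ[F] (ι → F)} (hs : InSS K k₀ s)
    (hs' : InSS K k₀ s') {i j : ι} (hij : i ≠ j) (he : s * sg i j * s = s' * sg i j * s') :
    s = s' := by
  have hi := hs.inv
  have hi' := hs'.inv
  -- y1 as a conjugate by `k₀`
  obtain ⟨σ, hσ⟩ := exists_mp hs.2
  have hy1 : s * sg i j * s = k₀ * sg (σ i) (σ j) * k₀⁻¹ := by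
    rw [← hσ.conj_sg i j, _root_.mul_inv_rev, hi]; group
  have hcd : σ i ≠ σ j := fun h => hij (σ.injective h)
  obtain ⟨r, hr, hr1, hr2⟩ := exists_ss D ht hodd hk hk' hij hcd
  -- h = s' * s
  have hc1 : (s' * s) * sg i j = sg i j * (s' * s) := by
    have h1 : s' * (s * sg i j * s) * s = s' * (s' * sg i j * s') * s := by rw [he]
    rw [show s' * (s * sg i j * s) * s = s' * s * sg i j * (s * s) by group, hs.sq, mul_one,
      show s' * (s' * sg i j * s') * s = (s' * s') * sg i j * (s' * s) by group, hs'.sq,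
      one_mul] at h1
    exact h1
  have hc2 : (s' * s) * (s * sg i j * s) = (s * sg i j * s) * (s' * s) := by
    nth_rewrite 2 [he]
    rw [show (s' * s) * (s * sg i j * s) = s' * (s * s) * sg i j * s by group, hs.sq, mul_one,
      show s' * sg i j * s' * (s' * s) = s' * sg i j * (s' * s') * s by group, hs'.sq, mul_one]
  rw [hy1] at hc2
  have hc3 := hr2 _ hc1 hc2
  -- (r s) inverts h
  have ho1 := odd_mul D h2 hN h4 ht hodd hk hk' hr hs
  have ho2 := odd_mul D h2 hN h4 ht hodd hk hk' hs' hs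
  have hinv : ∀ n : ℕ, Odd n → (r * s) ^ n * (s' * s) * ((r * s) ^ n)⁻¹ = (s' * s)⁻¹ := by
    have hb : (r * s) * (s' * s) * (r * s)⁻¹ = (s' * s)⁻¹ := by
      rw [_root_.mul_inv_rev, _root_.mul_inv_rev, hi, hi', hr.inv]
      have : r * s * (s' * s) * (s * r) = r * (s * s') * (s * s) * r := by group
      rw [this, hs.sq, mul_one]
      have hc4 : r * (s * s') = (s * s') * r := by
        have hcm : Commute (s' * s) r := hc3
        have h5 := hcm.inv_left
        rw [_root_.mul_inv_rev, hi, hi'] at h5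
        exact h5.eq.symm
      rw [hc4, mul_assoc, hr.sq, mul_one]
    have hb' : (r * s) * (s' * s)⁻¹ * (r * s)⁻¹ = s' * s := by
      calc (r * s) * (s' * s)⁻¹ * (r * s)⁻¹ = ((r * s) * (s' * s) * (r * s)⁻¹)⁻¹ := by group
        _ = s' * s := by rw [hb, inv_inv]
    rintro n ⟨m, rfl⟩
    induction m with
    | zero => simpa using hb
    | succ m ih =>
      have h5 : (r * s) ^ (2 * (m + 1) + 1) * (s' * s) * ((r * s) ^ (2 * (m + 1) + 1))⁻¹ =
          (r * s) * ((r * s) * ((r * s) ^ (2 * m + 1) * (s' * s) * ((r * s) ^ (2 * m + 1))⁻¹) *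
            (r * s)⁻¹) * (r * s)⁻¹ := by
        rw [show 2 * (m + 1) + 1 = 1 + (1 + (2 * m + 1)) by ring, pow_add, pow_add (r * s) 1,
          pow_one]
        simp only [_root_.mul_inv_rev, mul_assoc]
      rw [h5, ih, hb', hb]
  obtain ⟨n, hn⟩ := ho1
  have h5 := hinv _ ⟨n, rfl⟩
  rw [← hn, pow_orderOf_eq_one, one_mul, inv_one, mul_one] at h5
  have h6 : (s' * s) * (s' * s) = 1 := by
    nth_rewrite 1 [h5]; rw [inv_mul_cancel]
  have h7 : orderOf (s' * s) ∣ 2 := orderOf_dvd_of_pow_eq_one (by rw [pow_two, h6])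
  have h8 : orderOf (s' * s) = 1 := by
    rcases (Nat.dvd_prime Nat.prime_two).1 h7 with h | h
    · exact h
    · rw [h] at ho2; exact absurd ho2 (by decide)
  have h9 : s' * s = 1 := orderOf_eq_one_iff.1 h8
  rw [← hi'] at h9
  exact (inv_mul_eq_one.1 h9).symm

/-- the commutator space of a member of `SS` -/
theorem exists_space {s : (ι → F) ≃ₗ[F] (ι → F)} (hs : InSS K k₀ s) :
    ∃ W : Submodule F (ι → F), Module.finrank F W ≤ 2 ∧ ∀ x, s x - x ∈ W := by
  obtain ⟨⟨k, hk, i, j, hij, rfl⟩, -⟩ := hs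
  classical
  refine ⟨Submodule.span F (({k (e i), k (e j)} : Finset (ι → F)) : Set (ι → F)),
    (finrank_span_finset_le_card _).trans Finset.card_le_two, ?_⟩
  · intro x
    have h1 : ∀ y : ι → F, sg i j y - y ∈ Submodule.span F ({e i, e j} : Set (ι → F)) := by
      intro y
      have : sg i j y - y = (-2 * y i) • (e i : ι → F) + (-2 * y j) • (e j : ι → F) := by
        funext m
        rw [Pi.sub_apply, sg_apply]
        by_cases hi : m = i
        · subst hi; simp [e, Pi.single_apply, hij]; ring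
        · by_cases hj : m = j
          · subst hj; simp [e, Pi.single_apply, hi]; ring
          · simp [e, Pi.single_apply, hi, hj]
      rw [this]
      exact Submodule.add_mem _ (Submodule.smul_mem _ _ (Submodule.subset_span (by simp)))
        (Submodule.smul_mem _ _ (Submodule.subset_span (by simp)))
    have h3 : (k * sg i j * k⁻¹ : (ι → F) ≃ₗ[F] (ι → F)) x - x = k (sg i j (k⁻¹ x) - k⁻¹ x) := by
      rw [map_sub]
      congr 1
      show x = k (k⁻¹ x)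
      rw [← LinearEquiv.mul_apply, mul_inv_cancel]; rfl
    rw [h3]
    have h5 := Submodule.mem_map_of_mem (f := (k : (ι → F) →ₗ[F] (ι → F))) (h1 (k⁻¹ x))
    rw [Submodule.map_span] at h5
    simpa [Set.image_pair] using h5

theorem fam [Finite F] (D : Dat K) (h2 : (2 : F) ≠ 0) (hN : 5 ≤ Fintype.card ι) (hr : MonLe K 4)
    (hc : C2 K) (h4 : C4 K) (ht : T2 K)
    (hodd : ∀ k ∈ K, ¬ Mon k → ∀ i j a b : ι, i ≠ j → a ≠ b →
      Odd (orderOf (sg i j * (k * sg a b * k⁻¹))))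
    {k₀ : (ι → F) ≃ₗ[F] (ι → F)} (hk : k₀ ∈ K) (hk' : ¬ Mon k₀) :
    ∃ S : Set (Equiv.Perm ι), 1 ∈ S ∧
      (∀ P Q : Finset ι, P.card = 2 → Q.card = 2 → ∃! σ, σ ∈ S ∧ P.map σ.toEmbedding = Q) ∧
      ∀ σ ∈ S, ∃ g : (ι → F) ≃ₗ[F] (ι → F), Odd (orderOf g) ∧
        (∀ i, g (e i) = e (σ i) ∨ g (e i) = - e (σ i)) ∧
        ∃ W : Submodule F (ι → F), Module.finrank F W ≤ 4 ∧ ∀ x, g x - x ∈ W := by
  obtain ⟨i₀⟩ : Nonempty ι := Fintype.card_pos_iff.1 (by omega)
  obtain ⟨j₀, hj₀⟩ := Fintype.exists_ne_of_one_lt_card (by omega : 1 < Fintype.card ι) i₀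
  obtain ⟨s₀, hs₀, -, -⟩ := exists_ss D ht hodd hk hk' hj₀ hj₀
  obtain ⟨τ, hτ⟩ := exists_mp hs₀.mon'
  have hmon : ∀ s, InSS K k₀ s → Mon (s₀ * s) := by
    intro s hs
    have := mon_mul hs₀.mon' hs.2
    rwa [show s₀ * k₀ * (k₀⁻¹ * s) = s₀ * s by group] at this
  refine ⟨{σ | ∃ s, InSS K k₀ s ∧ MP (s₀ * s) σ}, ⟨s₀, hs₀, by rw [hs₀.sq]; exact mp_one⟩, ?_, ?_⟩
  · intro P Q hP hQ
    obtain ⟨i, j, hij, rfl⟩ := Finset.card_eq_two.1 hP
    obtain ⟨c, d, hcd, rfl⟩ := Finset.card_eq_two.1 hQ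
    have hcd' : τ⁻¹ c ≠ τ⁻¹ d := fun h => hcd (τ⁻¹.injective h)
    -- characterization
    have key : ∀ s σ, InSS K k₀ s → MP (s₀ * s) σ →
        (({i, j} : Finset ι).map σ.toEmbedding = {c, d} ↔
          s * sg i j * s = k₀ * sg (τ⁻¹ c) (τ⁻¹ d) * k₀⁻¹) := by
      intro s σ hs hσ
      have e1 : s₀ * (s * sg i j * s) * s₀ = sg (σ i) (σ j) := by
        rw [← hσ.conj_sg i j, _root_.mul_inv_rev, hs.inv, hs₀.inv]; group
      have e2 : s₀ * (k₀ * sg (τ⁻¹ c) (τ⁻¹ d) * k₀⁻¹) * s₀ = sg c d := by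
        have := hτ.conj_sg (τ⁻¹ c) (τ⁻¹ d)
        rw [show τ (τ⁻¹ c) = c from τ.apply_symm_apply c,
          show τ (τ⁻¹ d) = d from τ.apply_symm_apply d, _root_.mul_inv_rev, hs₀.inv] at this
        rw [← this]; group
      rw [Finset.map_insert, Finset.map_singleton]
      show ({σ i, σ j} : Finset ι) = {c, d} ↔ _
      constructor
      · intro h
        have h1 : (sg (σ i) (σ j) : (ι → F) ≃ₗ[F] (ι → F)) = sg c d := by
          apply ext_e
          intro m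
          rw [sg_e, sg_e]
          have : (m = σ i ∨ m = σ j) ↔ (m = c ∨ m = d) := by
            have := Finset.ext_iff.1 h m
            simpa using this
          simp only [this]
        rw [← e1, ← e2] at h1
        exact mul_left_cancel (mul_right_cancel h1)
      · intro h
        rw [h, e2] at e1
        exact (sg_inj h2 e1).symm
    obtain ⟨s, hs, hs1, -⟩ := exists_ss D ht hodd hk hk' hij hcd'
    obtain ⟨σ, hσ⟩ := exists_mp (hmon s hs)
    refine ⟨σ, ⟨⟨s, hs, hσ⟩, (key s σ hs hσ).2 hs1⟩, ?_⟩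
    rintro σ' ⟨⟨s', hs', hσ'⟩, h1⟩
    have h3 := (key s' σ' hs' hσ').1 h1
    have h5 : s = s' := unique_ss D h2 hN h4 ht hodd hk hk' hs hs' hij (by rw [hs1, h3])
    subst h5
    exact hσ'.unique hσ
  · rintro σ ⟨s, hs, hσ⟩
    refine ⟨s₀ * s, odd_mul D h2 hN h4 ht hodd hk hk' hs₀ hs, hσ, ?_⟩
    obtain ⟨W₀, hW₀, hW₀'⟩ := exists_space hs₀
    obtain ⟨W, hW, hW'⟩ := exists_space hs
    refine ⟨W₀ ⊔ W, ?_, ?_⟩
    · have := Submodule.finrank_add_le_finrank_add_finrank W₀ W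
      omega
    · intro x
      have : (s₀ * s) x - x = (s₀ (s x) - s x) + (s x - x) := by
        show s₀ (s x) - x = _
        abel
      rw [this]
      exact Submodule.add_mem _ (Submodule.mem_sup_left (hW₀' _)) (Submodule.mem_sup_right (hW' _))

end

end H24.FrFam
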