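/-
H24: the small Ree groups: automorphisms.
-/
import Cfsg.Agent.Lib.H24.ReeCnt1
import Cfsg.Agent.Lib.H22.ChevField
import Cfsg.Agent.Lib.H50.FieldAut
set_option autoImplicit false
set_option linter.unusedSimpArgs false
set_option linter.unusedVariables false
set_option linter.unusedSectionVars false
namespace H24.ReeAut

open Cfsg.Lie Matrix H24.ReeBlk H24.ReeAd H24.ReeAl H24.ReeGood H24.ReePts H24.ReeGrp
open H24.ReeAct H24.ReeStr H24.ReeInt H24.ReeUni H24.ReeSub H24.ReeSyl H24.ReeSyl3 H24.ReeCen H24.ReeSyl2 H24.ReeInvo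
open H24.ReeFour H24.ReeTor H24.ReeCnt
open scoped MatrixGroups Pointwise

variable {K : Type*} [Field K] {e : ℕ} [RF K e]

local notation "iv" => (H24.ReeCen.inv : G1 K e)

/-! ### field automorphisms -/

theorem glMap_wG (f : K →+* K) (w : List (ℕ × K)) :
    Matrix.GeneralLinearGroup.map f (wG w : GL chevG2.Idx K) = wG (w.map (fun p => (p.1, f p.2))) := by
  apply Units.ext
  rw [coe_wG]
  change (((wG w : GL chevG2.Idx K) : Matrix chevG2.Idx chevG2.Idx K)).map f = _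
  rw [coe_wG]
  unfold ChevalleyDatum.wordMat
  have h1 := map_list_prod (f.mapMatrix : Matrix chevG2.Idx chevG2.Idx K →+* Matrix chevG2.Idx chevG2.Idx K)
    (w.map fun p => chevG2.x K p.1 p.2)
  change f.mapMatrix _ = _
  rw [h1, List.map_map, List.map_map]
  congr 1
  apply List.map_congr_left
  rintro ⟨r, t⟩ _
  exact H22.ChevField.x_map f r t

theorem glMap_uE (f : K →+* K) (t u v : K) : Matrix.GeneralLinearGroup.map f (uE t u v : GL chevG2.Idx K) = uE (f t) (f u) (f v) := by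
  unfold uE
  rw [glMap_wG]
  simp [reeWordU]

theorem glMap_vE (f : K →+* K) (t u v : K) : Matrix.GeneralLinearGroup.map f (vE t u v : GL chevG2.Idx K) = vE (f t) (f u) (f v) := by
  unfold vE
  rw [glMap_wG]
  simp [reeWordV, reeWordU, ChevalleyDatum.negWord]

theorem glMap_mem (f : K →+* K) {g : GL chevG2.Idx K} (hg : g ∈ twistedG2 K e) :
    Matrix.GeneralLinearGroup.map f g ∈ twistedG2 K e := by
  have h : twistedG2 K e ≤ (twistedG2 K e).comap (Matrix.GeneralLinearGroup.map f) := by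
    conv_lhs => unfold twistedG2 ChevalleyDatum.genSubgroup
    rw [Subgroup.closure_le]
    rintro g ⟨w, ⟨t, u, v, rfl | rfl⟩, hw⟩
    · rw [SetLike.mem_coe, Subgroup.mem_comap]
      have : g = uE t u v := Units.ext (by rw [hw]; exact (coe_wG _).symm)
      rw [this, glMap_uE]
      exact uE_mem _ _ _
    · rw [SetLike.mem_coe, Subgroup.mem_comap]
      have : g = vE t u v := Units.ext (by rw [hw]; exact (coe_wG _).symm)
      rw [this, glMap_vE]
      exact vE_mem _ _ _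
  exact h hg

/-- the automorphism induced by a field automorphism -/
noncomputable def fieldAut (f : K ≃+* K) : MulAut (G1 K e) where
  toFun g := ⟨Matrix.GeneralLinearGroup.map (f : K →+* K) g, glMap_mem _ g.2⟩
  invFun g := ⟨Matrix.GeneralLinearGroup.map (f.symm : K →+* K) g, glMap_mem _ g.2⟩
  left_inv g := by
    apply Subtype.ext
    apply Units.ext
    ext i j
    change f.symm (f _) = _
    rw [f.symm_apply_apply]
  right_inv g := by
    apply Subtype.ext
    apply Units.ext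
    ext i j
    change f (f.symm _) = _
    rw [f.apply_symm_apply]
  map_mul' _ _ := Subtype.ext (map_mul _ _ _)

theorem fieldAut_u (f : K ≃+* K) (t u v : K) : (fieldAut f (uG t u v) : G1 K e) = uG (f t) (f u) (f v) :=
  Subtype.ext (glMap_uE (f : K →+* K) t u v)

theorem fieldAut_v (f : K ≃+* K) (t u v : K) : (fieldAut f (vG t u v) : G1 K e) = vG (f t) (f u) (f v) :=
  Subtype.ext (glMap_vE (f : K →+* K) t u v)

theorem fieldAut_mul (f g : K ≃+* K) : ((fieldAut f)⁻¹ * fieldAut g : MulAut (G1 K e)) = fieldAut (g.trans f.symm) := by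
  rw [inv_mul_eq_iff_eq_mul]
  ext1 x
  apply Subtype.ext
  apply Units.ext
  ext i j
  change g _ = f (f.symm (g _))
  rw [f.apply_symm_apply]

/-! ### action on the points -/

section finite
variable [Finite K]

/-- long root element -/
theorem z0_order : orderOf (uG 0 0 1 : G1 K e) = 3 := order_u0 (by simp)

theorem z0_fix {m : ℕ} (hn : Nat.card K = 3 ^ m) {p : Pt K} (h : (uG 0 0 1 : G1 K e) • p = p) : p = none := by
  obtain ⟨p', h1, h2⟩ := fix3 hn (z := (uG 0 0 1 : G1 K e)) (k := 1) (by rw [z0_order, pow_one]) (by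
    intro h; have := z0_order (K := K) (e := e); rw [h, orderOf_one] at this; norm_num at this)
  rw [h2 p h, ← h2 none (uG_none 0 0 1).1]

theorem z0_comm (t u v : K) (w : K) : (uG t u v * uG 0 0 w : G1 K e) = uG 0 0 w * uG t u v := by
  rw [uG_mul, uG_mul]
  congr 1 <;> simp [add_comm]

theorem fp1 {m : ℕ} (hn : Nat.card K = 3 ^ m) (φ : MulAut (G1 K e)) (p : Pt K) :
    ∃ p' : Pt K, ∀ g, g • p = p → φ g • p' = p' := by
  obtain ⟨k, hk⟩ := trans_pt (e := e) (none : Pt K) p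
  set z := k * uG 0 0 1 * k⁻¹ with hz
  have hzo : orderOf z = 3 := by rw [hz, orderOf_conj', z0_order]
  have hxo : orderOf (φ z) = 3 := by rw [MulEquiv.orderOf_eq, hzo]
  obtain ⟨p', h1, h2⟩ := fix3 hn (z := φ z) (k := 1) (by rw [hxo, pow_one]) (by
    intro h; rw [h, orderOf_one] at hxo; norm_num at hxo)
  have hcomm : ∀ y : G1 K e, y * z = z * y → φ y • p' = p' := by
    intro y hy
    apply h2
    rw [← mul_smul, ← map_mul, ← hy, map_mul, mul_smul, h1]
  refine ⟨p', fun g hg => ?_⟩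
  have hg' : (k⁻¹ * g * k) • (none : Pt K) = none := by
    rw [mul_smul, mul_smul, hk, hg, inv_smul_eq_iff, hk]
  obtain ⟨t, u, v, l, hb⟩ := exists_uh hg'
  have hu : φ (k * uG t u v * k⁻¹) • p' = p' := by
    apply hcomm
    rw [hz]
    have := z0_comm (K := K) (e := e) t u v 1
    calc k * uG t u v * k⁻¹ * (k * uG 0 0 1 * k⁻¹) = k * (uG t u v * uG 0 0 1) * k⁻¹ := by group
      _ = k * (uG 0 0 1 * uG t u v) * k⁻¹ := by rw [this]
      _ = _ := by group
  have hh : φ (k * hT l * k⁻¹) • p' = p' := by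
    set h := k * hT l * k⁻¹ with hh
    have h3 : h * z * h⁻¹ = k * uG 0 0 (ph K e l) * k⁻¹ := by
      have := hT_conj (K := K) (e := e) l 0 0 1
      rw [mul_zero, mul_zero, mul_one] at this
      rw [hz, ← this, hh]; group
    have h4 : φ (h * z * h⁻¹) • p' = p' := by
      apply hcomm
      rw [h3, hz]
      have := z0_comm (K := K) (e := e) 0 0 (ph K e l) 1
      calc k * uG 0 0 (ph K e l) * k⁻¹ * (k * uG 0 0 1 * k⁻¹) = k * (uG 0 0 (ph K e l) * uG 0 0 1) * k⁻¹ := by group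
        _ = k * (uG 0 0 1 * uG 0 0 (ph K e l)) * k⁻¹ := by rw [this]
        _ = _ := by group
    rw [map_mul, map_mul, map_inv, mul_smul, mul_smul] at h4
    have h5 : φ z • ((φ h)⁻¹ • p') = (φ h)⁻¹ • p' := by
      rw [eq_inv_smul_iff]; exact h4
    have h6 := h2 _ h5
    rw [inv_smul_eq_iff] at h6
    exact h6.symm
  have e1 : g = (k * uG t u v * k⁻¹) * (k * hT l * k⁻¹) := by
    have : k⁻¹ * g * k = uG t u v * hT l := hb
    calc g = k * (k⁻¹ * g * k) * k⁻¹ := by group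
      _ = _ := by rw [this]; group
  rw [e1, map_mul, mul_smul, hh, hu]

theorem fp {m : ℕ} (hn : Nat.card K = 3 ^ m) (φ : MulAut (G1 K e)) (p : Pt K) :
    ∃ p' : Pt K, ∀ g, g • p = p ↔ φ g • p' = p' := by
  obtain ⟨p', h1⟩ := fp1 hn φ p
  obtain ⟨p'', h2⟩ := fp1 hn φ⁻¹ p'
  have h3 : ∀ g : G1 K e, g • p = p → g • p'' = p'' := by
    intro g hg
    have := h2 _ (h1 g hg)
    rwa [MulAut.inv_apply_self] at this
  have h4 : p'' = p := by
    obtain ⟨k, hk⟩ := trans_pt (e := e) (none : Pt K) p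
    have h5 : (k * uG 0 0 1 * k⁻¹) • p = p := by
      rw [mul_smul, mul_smul, ← hk, inv_smul_smul, (uG_none 0 0 1).1]
    have h6 := h3 _ h5
    rw [mul_smul, mul_smul, ← eq_inv_smul_iff] at h6
    have h7 := z0_fix hn h6
    rw [inv_smul_eq_iff, hk] at h7
    exact h7
  refine ⟨p', fun g => ⟨h1 g, fun h => ?_⟩⟩
  have := h2 _ h
  rwa [MulAut.inv_apply_self, h4] at this

/-- automorphisms fixing two points -/
structure FixTwo (φ : MulAut (G1 K e)) : Prop where
  s0 : ∀ x : G1 K e, x • (none : Pt K) = none ↔ φ x • (none : Pt K) = none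
  s1 : ∀ x : G1 K e, x • (o0 : Pt K) = o0 ↔ φ x • (o0 : Pt K) = o0

theorem conj_fix_iff (g x : G1 K e) (p : Pt K) : (g * x * g⁻¹) • (g • p) = g • p ↔ x • p = p := by
  rw [mul_smul, mul_smul, inv_smul_smul]
  constructor
  · intro h; exact MulAction.injective g h
  · intro h; rw [h]

theorem exists_two {m : ℕ} (hn : Nat.card K = 3 ^ m) (φ : MulAut (G1 K e)) :
    ∃ g : G1 K e, FixTwo (MulAut.conj g * φ) := by
  obtain ⟨p, hp⟩ := fp hn φ none
  obtain ⟨q, hq⟩ := fp hn φ o0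
  have hpq : p ≠ q := by
    rintro rfl
    have h1 : (uG 1 0 0 : G1 K e) • (none : Pt K) = none := (uG_none 1 0 0).1
    rw [hp, ← hq, (uG_o0 1 0 0).1] at h1
    have h2 := congrArg Prod.fst (Option.some.inj h1)
    exact one_ne_zero h2
  obtain ⟨g1, hg1⟩ := trans_pt (e := e) p none
  obtain ⟨g, hgp, hgq⟩ : ∃ g : G1 K e, g • p = none ∧ g • q = o0 := by
    rcases hq1 : g1 • q with _ | ⟨t, u, v⟩
    · exfalso
      apply hpq
      apply MulAction.injective g1
      change g1 • p = g1 • q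
      rw [hg1, hq1]
    · refine ⟨(uG t u v)⁻¹ * g1, ?_, ?_⟩
      · rw [mul_smul, hg1, inv_smul_eq_iff, (uG_none t u v).1]
      · rw [mul_smul, hq1, inv_smul_eq_iff, (uG_o0 t u v).1]
  refine ⟨g, ⟨fun x => ?_, fun x => ?_⟩⟩
  · rw [hp]
    change _ ↔ (g * φ x * g⁻¹) • (none : Pt K) = none
    rw [← hgp, conj_fix_iff]
  · rw [hq]
    change _ ↔ (g * φ x * g⁻¹) • (o0 : Pt K) = o0
    rw [← hgq, conj_fix_iff]

theorem FixTwo.conj_hT {φ : MulAut (G1 K e)} (h : FixTwo φ) (l : Kˣ) : FixTwo (MulAut.conj (hT l : G1 K e) * φ) := by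
  have h1 : ∀ x : G1 K e, (MulAut.conj (hT l : G1 K e) * φ) x = hT l * φ x * (hT l)⁻¹ := fun x => rfl
  refine ⟨fun x => ?_, fun x => ?_⟩
  · rw [h.s0, h1]
    conv_rhs => rw [← (hT_fix (e := e) l).1]
    rw [conj_fix_iff]
  · rw [h.s1, h1]
    conv_rhs => rw [← (hT_fix (e := e) l).2.1]
    rw [conj_fix_iff]

theorem FixTwo.mul {φ ψ : MulAut (G1 K e)} (h : FixTwo φ) (h' : FixTwo ψ) : FixTwo (ψ * φ) :=
  ⟨fun x => (h.s0 x).trans (h'.s0 (φ x)), fun x => (h.s1 x).trans (h'.s1 (φ x))⟩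

theorem FixTwo.inv {φ : MulAut (G1 K e)} (h : FixTwo φ) : FixTwo φ⁻¹ := by
  refine ⟨fun x => ?_, fun x => ?_⟩
  · rw [h.s0 (φ⁻¹ x), MulAut.apply_inv_self]
  · rw [h.s1 (φ⁻¹ x), MulAut.apply_inv_self]

theorem o0_fix_v {m : ℕ} (hn : Nat.card K = 3 ^ m) {t u v : K} (h : (vG t u v : G1 K e) ≠ 1) {p : Pt K}
    (hp : (vG t u v : G1 K e) • p = p) : p = o0 := by
  obtain ⟨n, h1, h2⟩ := exists_swap' (K := K) (e := e)
  have h3 := vG_conj h1 h2 t u v
  obtain ⟨t', u', v', h4⟩ := mem_U1_iff.1 h3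
  have hne : (uG t' u' v' : G1 K e) ≠ 1 := by
    intro h5
    apply h
    rw [← h4] at h5
    calc (vG t u v : G1 K e) = n⁻¹ * (n * vG t u v * n⁻¹) * n := by group
      _ = 1 := by rw [h5]; group
  have h5 : (uG t' u' v' : G1 K e) • (n • p) = n • p := by
    rw [← h4, conj_fix_iff]; exact hp
  have h6 : n • p = none := by
    have hpt : (uG t' u' v' : G1 K e) ∈ ((syl3 (K := K) (e := e) hn : Sylow 3 (G1 K e)) : Subgroup (G1 K e)) := by
      rw [coe_syl3]; exact uG_mem _ _ _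
    haveI : Fact (Nat.Prime 3) := ⟨Nat.prime_three⟩
    obtain ⟨k, hk⟩ := IsPGroup.iff_orderOf.1 (syl3 (K := K) (e := e) hn).isPGroup' ⟨_, hpt⟩
    rw [Subgroup.orderOf_mk] at hk
    obtain ⟨p', a1, a2⟩ := fix3 hn hk hne
    rw [a2 _ h5, ← a2 none (uG_none _ _ _).1]
  rw [← inv_smul_eq_iff.2 h6.symm, inv_smul_eq_iff.2 h2.symm]

theorem fieldAut_fixTwo {m : ℕ} (hn : Nat.card K = 3 ^ m) (f : K ≃+* K) : FixTwo (fieldAut f : MulAut (G1 K e)) := by
  obtain ⟨p, hp⟩ := fp hn (fieldAut f : MulAut (G1 K e)) none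
  obtain ⟨q, hq⟩ := fp hn (fieldAut f : MulAut (G1 K e)) o0
  have h1 : p = none := by
    apply z0_fix (e := e) hn
    have := (hp (uG 0 0 1)).1 (uG_none 0 0 1).1
    rwa [fieldAut_u, map_zero, map_one] at this
  have h2 : q = o0 := by
    have := (hq (vG 0 0 1)).1 (vG_o0 0 0 1).1
    rw [fieldAut_v, map_zero, map_one] at this
    refine o0_fix_v hn ?_ this
    intro h3
    have h4 := (vG_none (K := K) (e := e) (t := 0) (u := 0) (v := 1) (by simp)).1
    rw [h3, one_smul] at h4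
    exact h4 rfl
  rw [h1] at hp
  rw [h2] at hq
  exact ⟨hp, hq⟩

end finite

end H24.ReeAut
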