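/-
H24: the small Ree groups: automorphisms, normal form.
-/
import Cfsg.Agent.Lib.H24.ReeAut
import Cfsg.Prelude.Def_KGroupFacts
set_option autoImplicit false
set_option linter.unusedSimpArgs false
set_option linter.unusedVariables false
set_option linter.unusedSectionVars false
namespace H24.ReeAut

open Cfsg.Lie Matrix H24.ReeBlk H24.ReeAd H24.ReeAl H24.ReeGood H24.ReePts H24.ReeGrp
open H24.ReeAct H24.ReeStr H24.ReeInt H24.ReeUni H24.ReeSub H24.ReeSyl H24.ReeSyl3 H24.ReeCen H24.ReeSyl2 H24.ReeInvo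
open H24.ReeFour H24.ReeTor H24.ReeCnt
open scoped MatrixGroups Pointwise

variable {K : Type*} [Field K] {e : ℕ} [RF K e] [Finite K]

local notation "iv" => (H24.ReeCen.inv : G1 K e)

theorem FixTwo.u_form {m : ℕ} (hn : Nat.card K = 3 ^ (2 * m + 1)) {φ : MulAut (G1 K e)} (h : FixTwo φ) (t u v : K) :
    ∃ t' u' v' : K, φ (uG t u v) = uG t' u' v' ∧ (t' = 0 ↔ t = 0) := by
  by_cases ht : t = 0
  · subst ht
    by_cases huv : (u, v) = ((0 : K), (0 : K))
    · rw [Prod.mk.injEq] at huv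
      refine ⟨0, 0, 0, ?_, Iff.rfl⟩
      rw [huv.1, huv.2, uG_zero, map_one]
    · have ho : orderOf (φ (uG 0 u v)) = 3 := by rw [MulEquiv.orderOf_eq, order_u0 huv]
      have hfix := (h.s0 _).1 (uG_none (e := e) 0 u v).1
      rcases stab3 hn hfix (by rw [ho]) with ⟨a, b, hab, hx⟩ | ⟨t', a, b, ht', hx⟩ | ⟨t', a, b, hne, hx⟩
      · exact ⟨0, a, b, hx, Iff.rfl⟩
      · rw [hx, order_ut ht'] at ho; norm_num at ho
      · rw [hx, order_ui hne] at ho; norm_num at ho
  · have ho : orderOf (φ (uG t u v)) = 9 := by rw [MulEquiv.orderOf_eq, order_ut ht]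
    have hfix := (h.s0 _).1 (uG_none (e := e) t u v).1
    rcases stab3 hn hfix (by rw [ho]; norm_num) with ⟨a, b, hab, hx⟩ | ⟨t', a, b, ht', hx⟩ | ⟨t', a, b, hne, hx⟩
    · rw [hx, order_u0 hab] at ho; norm_num at ho
    · exact ⟨t', a, b, hx, iff_of_false ht' ht⟩
    · rw [hx, order_ui hne] at ho; norm_num at ho

theorem FixTwo.h_form {φ : MulAut (G1 K e)} (h : FixTwo φ) (l : Kˣ) : ∃ l' : Kˣ, φ (hT l) = hT l' := by
  obtain ⟨l', hl, -⟩ := exists_hT ((h.s0 _).1 (hT_fix (e := e) l).1) ((h.s1 _).1 (hT_fix (e := e) l).2.1)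
  exact ⟨l', hl⟩

theorem FixTwo.iv_fix {φ : MulAut (G1 K e)} (h : FixTwo φ) : φ iv = iv := by
  obtain ⟨l', hl⟩ := h.h_form (-1)
  have h1 : φ iv = hT l' := hl
  have h2 : (hT (l' * l') : G1 K e) = hT 1 := by
    rw [hT_mul, ← h1, ← map_mul, inv_sq, map_one, hT_one]
  have h3 : (l' : K) * l' = 1 := congrArg Units.val (hT_inj h2)
  rcases mul_self_eq_one_iff.1 h3 with h4 | h4
  · exfalso
    rw [show l' = 1 from Units.ext h4, hT_one] at h1
    exact inv_ne ((MulEquiv.map_eq_one_iff φ).1 h1)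
  · rw [h1, show l' = -1 from Units.ext (by rw [h4]; simp)]; rfl

theorem FixTwo.z_form {m : ℕ} (hn : Nat.card K = 3 ^ (2 * m + 1)) {φ : MulAut (G1 K e)} (h : FixTwo φ) (v : K) :
    ∃ v' : K, φ (uG 0 0 v) = uG 0 0 v' := by
  obtain ⟨t0, a, b, h1, h2⟩ := h.u_form hn 0 0 v
  obtain ⟨t', u', v', h3, h4⟩ := h.u_form hn 1 0 0
  rw [h2.2 rfl] at h1
  have ht' : t' ≠ 0 := fun h5 => one_ne_zero (h4.1 h5)
  have h5 := congrArg φ (z0_comm (K := K) (e := e) 1 0 0 v)
  rw [map_mul, map_mul, h1, h3, uG_mul, uG_mul] at h5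
  obtain ⟨-, -, h6⟩ := uG_inj h5
  have h7 : t' * a = 0 := by
    rw [map_zero] at h6
    linear_combination h6
  have h8 : a = 0 := (mul_eq_zero.1 h7).resolve_left ht'
  exact ⟨b, by rw [h1, h8]⟩

theorem iv_conj (t u v : K) : (iv * uG t u v * iv⁻¹ : G1 K e) = uG (-t) u (-v) := by
  have h3 := three0 (K := K) (e := e)
  have := hT_conj (K := K) (e := e) (-1) t u v
  rw [show (hT (-1) : G1 K e) = iv from rfl] at this
  rw [this]
  congr 1 <;> simp <;> norm_num

theorem FixTwo.m_form {m : ℕ} (hn : Nat.card K = 3 ^ (2 * m + 1)) {φ : MulAut (G1 K e)} (h : FixTwo φ) (u : K) :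
    ∃ u' : K, φ (uG 0 u 0) = uG 0 u' 0 := by
  obtain ⟨t0, a, b, h1, h2⟩ := h.u_form hn 0 u 0
  rw [h2.2 rfl] at h1
  have h3 := congrArg φ (iv_conj (K := K) (e := e) 0 u 0)
  rw [neg_zero, map_mul, map_mul, map_inv, h.iv_fix, h1, iv_conj] at h3
  have h4 := (uG_inj h3).2.2
  have h5 : (2 : K) * b = 0 := by linear_combination -h4
  have h6 := (mul_eq_zero.1 h5).resolve_left (two_ne' (e := e))
  exact ⟨a, by rw [h1, h6]⟩

/-- an automorphism fixing the two points, the torus and the root group elementwise is trivial -/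
theorem eq_one {m : ℕ} (hm : 1 ≤ m) (hn : Nat.card K = 3 ^ (2 * m + 1)) {φ : MulAut (G1 K e)} (h : FixTwo φ)
    (hz : ∀ v, φ (uG 0 0 v) = uG 0 0 v) (hh : ∀ l, φ (hT l) = hT l) : φ = 1 := by
  have h3 := three0 (K := K) (e := e)
  have h2ne := two_ne' (K := K) (e := e)
  choose η hη using h.m_form hn
  choose α γ δ hα hα0 using fun t : K => h.u_form hn t 0 0
  -- equivariance
  have eqv : ∀ (l : Kˣ) (t : K), α (ph K e l ^ 2 / (l : K) ^ 3 * t) = ph K e l ^ 2 / (l : K) ^ 3 * α t ∧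
      γ (ph K e l ^ 2 / (l : K) ^ 3 * t) = (l : K) ^ 3 / ph K e l * γ t ∧
      δ (ph K e l ^ 2 / (l : K) ^ 3 * t) = ph K e l * δ t := by
    intro l t
    have h4 := congrArg φ (hT_conj (K := K) (e := e) l t 0 0)
    rw [mul_zero, mul_zero, map_mul, map_mul, map_inv, hh, hα, hα, hT_conj] at h4
    obtain ⟨a1, a2, a3⟩ := uG_inj h4
    exact ⟨a1.symm, a2.symm, a3.symm⟩
  -- every nonzero element is a weight
  have hsurj : ∀ t : K, t ≠ 0 → ∃ l : Kˣ, ph K e l ^ 2 / (l : K) ^ 3 = t ∧ ph K e l = t ^ 2 * ph K e t := by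
    have hinj : Function.Injective (fun l : Kˣ => (Units.map (ph K e : K →* K) l) ^ 2 / l ^ 3) := by
      intro l l' hl
      simp only at hl
      have h5 : (Units.map (ph K e : K →* K) (l / l')) ^ 2 = (l / l') ^ 3 := by
        rw [map_div, div_pow, div_pow, div_eq_div_iff_div_eq_div]
        exact hl
      have h6 := congrArg Units.val h5
      have h7 := ph_t (e := e) (Units.ne_zero (l / l')) (by simpa using h6)
      have h8 : l / l' = 1 := Units.ext h7
      exact div_eq_one.1 h8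
    have hs := Finite.injective_iff_surjective.1 hinj
    intro t ht
    obtain ⟨l, hl⟩ := hs (Units.mk0 t ht)
    have h6 := congrArg Units.val hl
    have h7 : ph K e l ^ 2 / (l : K) ^ 3 = t := by simpa using h6
    refine ⟨l, h7, ?_⟩
    have hl0 : (l : K) ≠ 0 := l.ne_zero
    have hpl : ph K e l ≠ 0 := fun h0 => hl0 ((map_eq_zero _).1 h0)
    rw [← h7, map_div₀, map_pow, map_pow, ph_ph]
    field_simp
  -- `α` is multiplication by a constant
  have hα1 : ∀ t, α t = t * α 1 := by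
    intro t
    by_cases ht : t = 0
    · rw [ht, zero_mul]; exact (hα0 0).2 rfl
    · obtain ⟨l, hl, -⟩ := hsurj t ht
      have := (eqv l 1).1
      rwa [mul_one, hl] at this
  have ha1 : α 1 ≠ 0 := fun h0 => one_ne_zero ((hα0 1).1 h0)
  have hcube : α 1 ^ 2 * ph K e (α 1) = 1 := by
    have h4 := congrArg φ (uG_cube (K := K) (e := e) 1 0 0)
    rw [map_pow, hα, uG_cube, hz] at h4
    have h5 := (uG_inj h4).2.2
    rw [map_one, one_pow, one_mul] at h5
    linear_combination -h5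
  have hα11 : α 1 = 1 := by
    have h4 := congrArg (ph K e) hcube
    rw [map_mul, map_pow, ph_ph, map_one] at h4
    -- φ(a)^2 a^3 = 1, a^2 φ(a) = 1
    have h5 : (α 1 ^ 2 * ph K e (α 1)) ^ 2 = 1 := by rw [hcube, one_pow]
    have h6 : α 1 * (ph K e (α 1) ^ 2 * α 1 ^ 3) = 1 := by linear_combination h5
    rw [h4, mul_one] at h6
    exact h6
  have hαt : ∀ t, α t = t := by intro t; rw [hα1, hα11, mul_one]
  -- `η` is the identity
  have hcomm : ∀ t u : K, (uG t 0 0 * uG 0 u 0 : G1 K e) = uG 0 u 0 * uG 0 0 (t * u) * uG t 0 0 := by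
    intro t u
    rw [uG_mul, uG_mul, uG_mul]
    congr 1 <;> simp
  have hη1 : ∀ u, η u = u := by
    intro u
    have h4 := congrArg φ (hcomm 1 u)
    rw [map_mul, map_mul, map_mul, hα, hη, hz, uG_mul, uG_mul, uG_mul] at h4
    have h5 := (uG_inj h4).2.2
    rw [hα11] at h5
    simp only [map_zero, mul_zero, zero_mul, sub_zero, add_zero, zero_add, one_mul] at h5
    linear_combination h5
  -- `γ` and `δ`
  have hprod : ∀ t t' : K, (uG t 0 0 * uG t' 0 0 : G1 K e) =
      uG 0 (-(t * ph K e t')) 0 * uG 0 0 (t ^ 2 * ph K e t') * uG (t + t') 0 0 := by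
    intro t t'
    rw [uG_mul, uG_mul, uG_mul]
    congr 1
    · simp
    · simp
    · simp
      linear_combination (-(t ^ 2 * ph K e t')) * h3
  have hgd : ∀ t t' : K, γ (t + t') = γ t + γ t' ∧ δ (t + t') = δ t + δ t' - t' * γ t := by
    intro t t'
    have h4 := congrArg φ (hprod t t')
    rw [map_mul, map_mul, map_mul, hα, hα, hα, hη, hη1, hz, hαt, hαt, hαt, uG_mul, uG_mul, uG_mul] at h4
    obtain ⟨-, h5, h6⟩ := uG_inj h4
    simp only [map_zero, mul_zero, zero_mul, sub_zero, add_zero, zero_add] at h5 h6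
    refine ⟨by linear_combination -h5, ?_⟩
    linear_combination -h6 + (-(t ^ 2 * ph K e t')) * h3
  have hγ1 : γ 1 = 0 := by
    have h4 : ∀ t, γ t = t * γ 1 := by
      intro t
      have h5 := (hgd t 1).2
      have h6 := (hgd 1 t).2
      rw [add_comm 1 t] at h6
      rw [h5] at h6
      linear_combination -h6
    have h5 := (eqv (-1) 1).2.1
    have e1 : ph K e (((-1 : Kˣ) : K)) ^ 2 / (((-1 : Kˣ) : K)) ^ 3 = -1 := by simp; norm_num
    have e2 : (((-1 : Kˣ) : K)) ^ 3 / ph K e (((-1 : Kˣ) : K)) = 1 := by simp; norm_num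
    rw [e1, e2, mul_one, one_mul, h4] at h5
    have h6 : (2 : K) * γ 1 = 0 := by linear_combination -h5
    exact (mul_eq_zero.1 h6).resolve_left h2ne
  have hγ : ∀ t, γ t = 0 := by
    intro t
    have h5 := (hgd t 1).2
    have h6 := (hgd 1 t).2
    rw [add_comm 1 t] at h6
    rw [h5, hγ1] at h6
    linear_combination -h6
  have hδadd : ∀ t t', δ (t + t') = δ t + δ t' := by
    intro t t'
    rw [(hgd t t').2, hγ, mul_zero, sub_zero]
  have hδ : ∀ t, δ t = t ^ 2 * ph K e t * δ 1 := by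
    intro t
    by_cases ht : t = 0
    · have := hδadd 0 0
      rw [add_zero] at this
      have h0 : δ 0 = 0 := by linear_combination -this
      rw [ht, h0]; simp
    · obtain ⟨l, hl, hl2⟩ := hsurj t ht
      have := (eqv l 1).2.2
      rwa [mul_one, hl, hl2] at this
  have hδ1 : δ 1 = 0 := by
    by_contra hne
    have key : ∀ t : K, ph K e t = t := by
      intro t
      have a1 := hδadd t 1
      have a2 := hδadd (-t) 1
      rw [hδ (t + 1), hδ t, map_add, map_one] at a1
      rw [hδ (-t + 1), hδ (-t), map_add, map_one, map_neg] at a2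
      have a3 : δ 1 * (2 * (ph K e t + 2 * t)) = 0 := by linear_combination a1 - a2
      have a4 := (mul_eq_zero.1 a3).resolve_left hne
      have a5 := (mul_eq_zero.1 a4).resolve_left h2ne
      linear_combination a5 - t * h3
    have hcard : 3 < Nat.card K := by
      rw [hn]
      calc 3 = 3 ^ 1 := by norm_num
        _ < 3 ^ (2 * m + 1) := Nat.pow_lt_pow_right (by norm_num) (by omega)
    have hall : ∀ t : K, t = 0 ∨ t = 1 ∨ t = -1 := by
      intro t
      have h4 := ph_ph (K := K) (e := e) t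
      rw [key, key] at h4
      have h5 : t * ((t - 1) * (t + 1)) = 0 := by linear_combination -h4
      rcases mul_eq_zero.1 h5 with h6 | h6
      · exact Or.inl h6
      · rcases mul_eq_zero.1 h6 with h7 | h7
        · exact Or.inr (Or.inl (by linear_combination h7))
        · exact Or.inr (Or.inr (by linear_combination h7))
    have h6 : (Set.univ : Set K) ⊆ {0, 1, -1} := fun t _ => hall t
    have h7 := Set.ncard_le_ncard h6
    rw [Set.ncard_univ] at h7
    have h8 : ({0, 1, -1} : Set K).ncard ≤ 3 := by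
      refine (Set.ncard_insert_le _ _).trans ?_
      have := Set.ncard_insert_le (1 : K) {-1}
      rw [Set.ncard_singleton] at this
      omega
    omega
  have hu : ∀ t u v : K, φ (uG t u v) = uG t u v := by
    intro t u v
    have h4 : (uG t u v : G1 K e) = uG 0 u 0 * uG 0 0 (v + t * u) * uG t 0 0 := by
      rw [uG_mul, uG_mul]
      congr 1 <;> simp
    rw [h4, map_mul, map_mul, hη, hη1, hz, hα, hαt, hγ, hδ, hδ1, mul_zero]
  -- the action on points
  have hstab : ∀ (p : Pt K) (g : G1 K e), g • p = p → φ g • p = p := by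
    intro p g hg
    rcases p with _ | ⟨t, u, v⟩
    · exact (h.s0 g).1 hg
    · have h4 : ((uG t u v)⁻¹ * g * uG t u v : G1 K e) • (o0 : Pt K) = o0 := by
        rw [mul_smul, mul_smul, (uG_o0 t u v).1, hg, inv_smul_eq_iff, (uG_o0 t u v).1]
      rw [h.s1, map_mul, map_mul, map_inv, hu, mul_smul, mul_smul, (uG_o0 t u v).1, inv_smul_eq_iff, (uG_o0 t u v).1] at h4
      exact h4
  have hpt : ∀ k : G1 K e, φ k • (none : Pt K) = k • none := by
    intro k
    have h4 : (k * uG 0 0 1 * k⁻¹ : G1 K e) • (k • (none : Pt K)) = k • none := by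
      rw [conj_fix_iff]; exact (uG_none 0 0 1).1
    have h5 := hstab _ _ h4
    rw [map_mul, map_mul, map_inv, hu, mul_smul, mul_smul, ← eq_inv_smul_iff] at h5
    have h6 := z0_fix hn h5
    rw [inv_smul_eq_iff] at h6
    exact h6.symm
  ext1 g
  rw [MulAut.one_apply]
  have h4 : (φ g)⁻¹ * g = 1 := by
    apply faithful
    intro p
    obtain ⟨k, hk⟩ := trans_pt (e := e) (none : Pt K) p
    rw [mul_smul, inv_smul_eq_iff, ← hk]
    have h5 := hpt (g * k)
    rw [map_mul, mul_smul, mul_smul, hpt k] at h5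
    exact h5.symm
  rw [inv_mul_eq_one] at h4
  exact h4

/-- normal form of automorphisms -/
theorem exists_form {m : ℕ} (hm : 1 ≤ m) (hn : Nat.card K = 3 ^ (2 * m + 1)) (φ : MulAut (G1 K e)) :
    ∃ (g : G1 K e) (f : K ≃+* K), MulAut.conj g * φ = fieldAut f := by
  obtain ⟨g₁, h1⟩ := exists_two hn φ
  set φ₁ := MulAut.conj g₁ * φ with hφ₁
  choose β hβ using h1.z_form hn
  choose τ hτ using h1.h_form
  have hβadd : ∀ a b, β (a + b) = β a + β b := by
    intro a b
    have h4 : (uG 0 0 (a + b) : G1 K e) = uG 0 0 a * uG 0 0 b := by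
      rw [uG_mul]; congr 1 <;> simp
    have h5 := congrArg φ₁ h4
    rw [map_mul, hβ, hβ, hβ, uG_mul] at h5
    have h6 := (uG_inj h5).2.2
    rw [h6]; simp
  have hβmul : ∀ (l : Kˣ) (v : K), β (ph K e l * v) = ph K e (τ l) * β v := by
    intro l v
    have h4 := hT_conj (K := K) (e := e) l 0 0 v
    rw [mul_zero, mul_zero] at h4
    have h5 := congrArg φ₁ h4
    rw [map_mul, map_mul, map_inv, hτ, hβ, hβ, hT_conj] at h5
    exact ((uG_inj h5).2.2).symm
  have hβ0 : β 0 = 0 := by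
    have := hβadd 0 0
    rw [add_zero] at this
    exact left_eq_add.1 this
  have hβinj : Function.Injective β := by
    intro a b hab
    have h4 : φ₁ (uG 0 0 a) = φ₁ (uG 0 0 b) := by rw [hβ, hβ, hab]
    exact (uG_inj (φ₁.injective h4)).2.2
  have hβ1 : β 1 ≠ 0 := fun h0 => one_ne_zero (hβinj (h0.trans hβ0.symm))
  set c := β 1 with hc
  have hmulc : ∀ a b : K, β (a * b) * c = β a * β b := by
    intro a b
    by_cases ha : a = 0
    · rw [ha, zero_mul, hβ0, zero_mul, zero_mul]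
    · obtain ⟨y, hy⟩ : ∃ y : K, ph K e y = a := ⟨th K e a, ph_th a⟩
      have hy0 : y ≠ 0 := by rintro rfl; rw [map_zero] at hy; exact ha hy.symm
      have h4 := hβmul (Units.mk0 y hy0) b
      have h5 := hβmul (Units.mk0 y hy0) 1
      rw [Units.val_mk0, hy] at h4 h5
      rw [mul_one] at h5
      rw [h4, h5, ← hc]; ring
  let f₀ : K →+* K :=
    { toFun := fun a => c⁻¹ * β a
      map_one' := inv_mul_cancel₀ hβ1
      map_zero' := by rw [hβ0, mul_zero]
      map_add' := fun a b => by rw [hβadd, mul_add]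
      map_mul' := fun a b => by
        have := hmulc a b
        have h4 : β (a * b) = β a * β b * c⁻¹ := by rw [← this, mul_inv_cancel_right₀ hβ1]
        rw [h4]; ring }
  let f : K ≃+* K := RingEquiv.ofBijective f₀ (Finite.injective_iff_bijective.mp f₀.injective)
  have hf : ∀ a, f a = c⁻¹ * β a := fun a => rfl
  have hfph : ∀ a, f (ph K e a) = ph K e (f a) := by
    intro a
    change f ((a ^ e) ^ 3) = ((f a) ^ e) ^ 3
    rw [map_pow, map_pow]
  have hfτ : ∀ l : Kˣ, (τ l : K) = f l := by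
    intro l
    apply (ph K e).injective
    rw [← hfph, hf]
    have h5 := hβmul l 1
    rw [mul_one, ← hc] at h5
    rw [h5, mul_comm, mul_inv_cancel_right₀ hβ1]
  -- conjugate by a torus element
  obtain ⟨y, hy⟩ : ∃ y : K, ph K e y = c⁻¹ := ⟨th K e c⁻¹, ph_th _⟩
  have hy0 : y ≠ 0 := by rintro rfl; rw [map_zero] at hy; exact inv_ne_zero hβ1 hy.symm
  set l₀ := Units.mk0 y hy0 with hl₀
  set φ₂ := MulAut.conj (hT l₀ : G1 K e) * φ₁ with hφ₂
  have h2 : FixTwo φ₂ := h1.conj_hT l₀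
  have h2z : ∀ v, φ₂ (uG 0 0 v) = uG 0 0 (f v) := by
    intro v
    change hT l₀ * φ₁ (uG 0 0 v) * (hT l₀)⁻¹ = _
    rw [hβ, hT_conj, mul_zero, mul_zero, hl₀, Units.val_mk0, hy, hf]
  have h2h : ∀ l, φ₂ (hT l) = hT (Units.map (f : K →* K) l) := by
    intro l
    change hT l₀ * φ₁ (hT l) * (hT l₀)⁻¹ = _
    rw [hτ, ← hT_mul, mul_comm, hT_mul, mul_inv_cancel_right]
    congr 1
    exact Units.ext (hfτ l)
  have hfa_h : ∀ l : Kˣ, (fieldAut f (hT l) : G1 K e) = hT (Units.map (f : K →* K) l) := by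
    intro l
    obtain ⟨l', hl'⟩ := (fieldAut_fixTwo hn f).h_form (e := e) l
    rw [hl']
    congr 1
    have h4 := hT_conj (K := K) (e := e) l 0 0 1
    rw [mul_zero, mul_zero, mul_one] at h4
    have h5 := congrArg (fieldAut f : MulAut (G1 K e)) h4
    rw [map_mul, map_mul, map_inv, fieldAut_u, fieldAut_u, hl', map_zero, map_one, hT_conj] at h5
    have h6 := (uG_inj h5).2.2
    rw [mul_one, hfph] at h6
    exact Units.ext ((ph K e).injective h6)
  have h3 : (fieldAut f)⁻¹ * φ₂ = 1 := by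
    apply eq_one hm hn (h2.mul (fieldAut_fixTwo hn f).inv)
    · intro v
      rw [MulAut.mul_apply, h2z, MulAut.inv_apply, MulEquiv.symm_apply_eq, fieldAut_u, map_zero]
    · intro l
      rw [MulAut.mul_apply, h2h, MulAut.inv_apply, MulEquiv.symm_apply_eq, hfa_h]
  refine ⟨hT l₀ * g₁, f, ?_⟩
  rw [map_mul, mul_assoc, ← hφ₁, ← hφ₂]
  exact (inv_mul_eq_one.mp h3).symm

/-- inner field automorphisms are trivial -/
theorem eq_refl_of_inner {m : ℕ} (hn : Nat.card K = 3 ^ m) {f : K ≃+* K} {g : G1 K e} (h : fieldAut f = MulAut.conj g) :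
    f = RingEquiv.refl K := by
  have h1 : ∀ x : G1 K e, fieldAut f x = g * x * g⁻¹ := fun x => by rw [h]; rfl
  have hft := fieldAut_fixTwo (e := e) hn f
  have hg0 : g • (none : Pt K) = none := by
    have h2 := (hft.s0 (uG 0 0 1)).1 (uG_none 0 0 1).1
    rw [h1, mul_smul, mul_smul, ← eq_inv_smul_iff] at h2
    have h3 := z0_fix hn h2
    rw [inv_smul_eq_iff] at h3
    exact h3.symm
  have hg1 : g • (o0 : Pt K) = o0 := by
    have h2 := (hft.s1 (vG 0 0 1)).1 (vG_o0 0 0 1).1
    rw [h1, mul_smul, mul_smul, ← eq_inv_smul_iff] at h2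
    have h3 := o0_fix_v hn (by
      intro h3
      have h4 := (vG_none (K := K) (e := e) (t := 0) (u := 0) (v := 1) (by simp)).1
      rw [h3, one_smul] at h4
      exact h4 rfl) h2
    rw [inv_smul_eq_iff] at h3
    exact h3.symm
  obtain ⟨l, rfl, -⟩ := exists_hT hg0 hg1
  have h2 := h1 (uG 0 0 1)
  rw [fieldAut_u, map_zero, map_one, hT_conj, mul_zero, mul_zero, mul_one] at h2
  have h3 := ph_v (uG_inj h2).2.2.symm
  have h4 : l = 1 := Units.ext h3
  ext v
  have h5 := h1 (uG 0 0 v)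
  rw [h4, hT_one, one_mul, inv_one, mul_one, fieldAut_u] at h5
  exact (uG_inj h5).2.2

theorem card_out {m : ℕ} (hm : 1 ≤ m) (hn : Nat.card K = 3 ^ (2 * m + 1)) : Nat.card (Cfsg.Out (G1 K e)) = 2 * m + 1 := by
  haveI : Fact (Nat.Prime 3) := ⟨Nat.prime_three⟩
  haveI := RF.char3 (K := K) (e := e)
  let ψ : (K ≃+* K) → Cfsg.Out (G1 K e) := fun f => QuotientGroup.mk (fieldAut f)
  have hψ : Function.Bijective ψ := by
    constructor
    · intro f g h
      have h1 := QuotientGroup.eq.mp h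
      obtain ⟨x, hx⟩ := h1
      rw [fieldAut_mul] at hx
      have h2 := eq_refl_of_inner hn hx.symm
      ext a
      have := DFunLike.congr_fun h2 a
      have h3 : f.symm (g a) = a := this
      rw [← h3, f.apply_symm_apply, h3]
    · intro q
      obtain ⟨φ, rfl⟩ := QuotientGroup.mk_surjective q
      obtain ⟨g, f, h⟩ := exists_form hm hn φ
      refine ⟨f, ?_⟩
      change QuotientGroup.mk (fieldAut f) = QuotientGroup.mk φ
      rw [QuotientGroup.eq, ← h]
      refine ⟨φ⁻¹ g⁻¹, ?_⟩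
      ext1 x
      simp [MulAut.conj_apply, MulAut.mul_apply]
  rw [← Nat.card_congr (Equiv.ofBijective ψ hψ)]
  exact H50.FieldAut.card_ringAut (p := 3) hn

end H24.ReeAut
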