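import Mathlib
import Cfsg.Agent.Lib.H24.ReeInvo

/-!
The small Ree group `²G₂(3)`: its derived subgroup is simple of order `504`.
-/

set_option autoImplicit false

namespace H24.ReeThree

open MulAction
open scoped commutatorElement

/-- a simplicity criterion for a perfect group acting on `28` points -/
theorem simple_of {M X : Type*} [Group M] [Finite M] [MulAction M X] [Finite X] [IsPretransitive M X] [FaithfulSMul M X] [Nontrivial M]
    (x0 : X) (hX : Nat.card X = 28) (U : Subgroup M) (hU : Nat.card U = 9) (hfix : ∀ u ∈ U, u • x0 = x0)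
    (hfree : ∀ u ∈ U, u ≠ 1 → ∀ x : X, u • x = x → x = x0) (hs : Group.IsSolvable (stabilizer M x0)) (hperf : commutator M = ⊤) :
    IsSimpleGroup M := by
  refine ⟨fun N hN => ?_⟩
  by_cases hne : N = ⊥
  · exact Or.inl hne
  right
  -- the orbit of `x0` under `N`
  have hdvd : (orbit N x0).ncard ∣ 28 := by
    rw [← hX]
    exact (IsBlock.orbit_of_normal (G := M) (N := N) x0).ncard_dvd_card ⟨x0, mem_orbit_self x0⟩
  let Y : SubMulAction U X :=
    { carrier := {x | x ∈ orbit N x0 ∧ x ≠ x0}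
      smul_mem' := by
        rintro ⟨u, hu⟩ x ⟨⟨⟨n, hn⟩, rfl⟩, hx⟩
        refine ⟨⟨⟨u * n * u⁻¹, hN.conj_mem _ hn u⟩, ?_⟩, ?_⟩
        · change (u * n * u⁻¹) • x0 = u • n • x0
          have : u⁻¹ • x0 = x0 := hfix _ (inv_mem hu)
          rw [mul_smul, this, mul_smul]
        · intro h
          apply hx
          change u • (n • x0) = x0 at h
          change n • x0 = x0
          exact MulAction.injective u (h.trans (hfix u hu).symm) }
  have hst : ∀ y : Y, stabilizer U y = ⊥ := by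
    rintro ⟨y, hy1, hy2⟩
    rw [eq_bot_iff]
    rintro ⟨u, hu⟩ h
    rw [Subgroup.mem_bot]
    by_contra hu1
    apply hy2
    have hu2 : u ≠ 1 := fun h => hu1 (Subtype.ext h)
    have h3 := congrArg (fun z : Y => (z : X)) (mem_stabilizer_iff.1 h)
    exact hfree u hu hu2 y h3
  have h9 : 9 ∣ Nat.card Y := by
    rw [Nat.card_congr (selfEquivOrbitsQuotientProd hst), Nat.card_prod, hU]
    exact Dvd.intro_left _ rfl
  have hYc : (orbit N x0).ncard = Nat.card Y + 1 := by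
    have h1 : Nat.card Y = (orbit N x0 \ {x0}).ncard := by
      rw [← Nat.card_coe_set_eq]; rfl
    rw [h1, Set.ncard_diff_singleton_add_one (mem_orbit_self x0)]
  have h28 : (orbit N x0).ncard = 1 ∨ (orbit N x0).ncard = 28 := by
    have hm : (orbit N x0).ncard ∈ Nat.divisors 28 := Nat.mem_divisors.2 ⟨hdvd, by norm_num⟩
    have hd : Nat.divisors 28 = {1, 2, 4, 7, 14, 28} := by decide
    rw [hd] at hm
    simp only [Finset.mem_insert, Finset.mem_singleton] at hm
    omega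
  rcases h28 with h1 | h1
  · -- then `N` is trivial
    exfalso
    apply hne
    rw [Set.ncard_eq_one] at h1
    obtain ⟨y, hy⟩ := h1
    have hx0 : x0 ∈ ({y} : Set X) := hy ▸ mem_orbit_self x0
    rw [Set.mem_singleton_iff] at hx0
    rw [eq_bot_iff]
    intro n hn
    rw [Subgroup.mem_bot]
    apply FaithfulSMul.eq_of_smul_eq_smul (α := X)
    intro x
    rw [one_smul]
    obtain ⟨g, rfl⟩ := exists_smul_eq M x0 x
    have h2 : (g⁻¹ * n * g) • x0 ∈ orbit N x0 :=
      ⟨⟨g⁻¹ * n * g, by simpa using hN.conj_mem _ hn g⁻¹⟩, rfl⟩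
    rw [hy, Set.mem_singleton_iff, ← hx0, mul_smul, mul_smul, inv_smul_eq_iff] at h2
    exact h2
  · -- `N` is transitive
    have htr : ∀ x : X, x ∈ orbit N x0 := by
      intro x
      have h2 : orbit N x0 = Set.univ := by
        apply Set.eq_univ_of_univ_subset
        rw [← Set.eq_of_subset_of_ncard_le (Set.subset_univ (orbit N x0)) (by rw [Set.ncard_univ, hX, h1])]
      rw [h2]; exact Set.mem_univ x
    have hsurj : Function.Surjective ((QuotientGroup.mk' N).comp (stabilizer M x0).subtype) := by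
      intro q
      obtain ⟨g, rfl⟩ := QuotientGroup.mk'_surjective N q
      obtain ⟨⟨n, hn⟩, h2⟩ := htr (g • x0)
      have h2' : n • x0 = g • x0 := h2
      refine ⟨⟨n⁻¹ * g, ?_⟩, ?_⟩
      · rw [mem_stabilizer_iff, mul_smul, inv_smul_eq_iff, h2']
      · change QuotientGroup.mk' N (n⁻¹ * g) = _
        rw [map_mul]
        have : QuotientGroup.mk' N n⁻¹ = 1 := by
          rw [← MonoidHom.mem_ker, QuotientGroup.ker_mk']; exact inv_mem hn
        rw [this, one_mul]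
    haveI : Group.IsSolvable (M ⧸ N) := Group.isSolvable_of_surjective hsurj
    have hperf' : commutator (M ⧸ N) = ⊤ := by
      have h3 := Subgroup.map_commutator (⊤ : Subgroup M) ⊤ (QuotientGroup.mk' N)
      rw [← commutator_def, hperf, Subgroup.map_top_of_surjective _ (QuotientGroup.mk'_surjective N)] at h3
      rw [commutator_def]; exact h3.symm
    have h4 : (⊤ : Subgroup (M ⧸ N)) = ⊥ := by
      obtain ⟨n, hn⟩ := (inferInstance : Group.IsSolvable (M ⧸ N))
      rw [← hn]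
      clear hn
      induction n with
      | zero => rfl
      | succ n ih => rw [derivedSeries_succ, ← ih, ← commutator_def, hperf']
    rw [← QuotientGroup.ker_mk' N, eq_top_iff]
    intro x _
    rw [MonoidHom.mem_ker]
    have : QuotientGroup.mk' N x ∈ (⊤ : Subgroup (M ⧸ N)) := Subgroup.mem_top _
    rwa [h4, Subgroup.mem_bot] at this

open Cfsg.Lie Matrix H24.ReeBlk H24.ReeAd H24.ReeAl H24.ReeGood H24.ReePts H24.ReeGrp
open H24.ReeAct H24.ReeStr H24.ReeInt H24.ReeUni H24.ReeSub H24.ReeSyl H24.ReeSyl3 H24.ReeCen H24.ReeSyl2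

instance rf3 : RF (ZMod 3) 1 := rf_of_card (K := ZMod 3) (m := 0) (by simp)

local notation "iv" => (H24.ReeCen.inv : G1 (ZMod 3) 1)

theorem ph_id (x : ZMod 3) : ph (ZMod 3) 1 x = x := by
  rw [Subsingleton.elim (ph (ZMod 3) 1) (RingHom.id (ZMod 3))]; rfl

theorem mul3 (t u v t' u' v' : ZMod 3) : (uG t u v * uG t' u' v' : G1 (ZMod 3) 1) =
    uG (t + t') (u + u' - t * t') (v + v' - t ^ 2 * t' - t' * u + t * t' * t') := by
  rw [uG_mul]
  simp only [ph_id]

theorem hT3 (l : (ZMod 3)ˣ) (t u v : ZMod 3) : (hT l * uG t u v * (hT l)⁻¹ : G1 (ZMod 3) 1) =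
    uG ((l : ZMod 3) * t) u ((l : ZMod 3) * v) := by
  rw [hT_conj]
  simp only [ph_id]
  have h2 : ∀ l : (ZMod 3)ˣ, (l : ZMod 3) ^ 2 = 1 := by decide
  have h3 := l.ne_zero
  have h1 : (l : ZMod 3) ^ 2 / (l : ZMod 3) ^ 3 = l ∧ (l : ZMod 3) ^ 3 / (l : ZMod 3) = 1 := by
    constructor
    · rw [div_eq_iff (pow_ne_zero 3 h3)]
      linear_combination (-(l : ZMod 3) ^ 2) * h2 l
    · rw [div_eq_iff h3]
      linear_combination (l : ZMod 3) * h2 l
  rw [h1.1, h1.2, one_mul]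

/-- the invariant of an element of `U` -/
def F (x : G1 (ZMod 3) 1) (c : ZMod 3) : Prop := ∃ t u v : ZMod 3, x = uG t u v ∧ c = u - t ^ 2

theorem F_mul {x y : G1 (ZMod 3) 1} {c d : ZMod 3} (hx : F x c) (hy : F y d) : F (x * y) (c + d) := by
  obtain ⟨t, u, v, rfl, rfl⟩ := hx
  obtain ⟨t', u', v', rfl, rfl⟩ := hy
  refine ⟨_, _, _, mul3 t u v t' u' v', ?_⟩
  have h3 : (3 : ZMod 3) = 0 := by decide
  linear_combination (t * t') * h3

theorem F_one : F 1 0 := ⟨0, 0, 0, uG_zero.symm, by ring⟩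

theorem F_unique {x : G1 (ZMod 3) 1} {c d : ZMod 3} (hx : F x c) (hy : F x d) : c = d := by
  obtain ⟨t, u, v, rfl, rfl⟩ := hx
  obtain ⟨t', u', v', h, rfl⟩ := hy
  obtain ⟨rfl, rfl, rfl⟩ := uG_inj h
  rfl

theorem F_of_mem {x : G1 (ZMod 3) 1} (hx : x ∈ U1 (ZMod 3) 1) : ∃ c, F x c := by
  obtain ⟨t, u, v, rfl⟩ := mem_U1_iff.1 hx
  exact ⟨_, t, u, v, rfl, rfl⟩

theorem mem_of_F {x : G1 (ZMod 3) 1} {c : ZMod 3} (hx : F x c) : x ∈ U1 (ZMod 3) 1 := by
  obtain ⟨t, u, v, rfl, -⟩ := hx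
  exact uG_mem _ _ _

theorem F_inv {x : G1 (ZMod 3) 1} {c : ZMod 3} (hx : F x c) : F x⁻¹ (-c) := by
  obtain ⟨d, hd⟩ := F_of_mem (inv_mem (mem_of_F hx))
  have h := F_mul hx hd
  rw [mul_inv_cancel] at h
  have := F_unique F_one h
  have hd' : d = -c := by linear_combination -this
  rwa [hd'] at hd

theorem F_hT {x : G1 (ZMod 3) 1} {c : ZMod 3} (hx : F x c) (l : (ZMod 3)ˣ) : F (hT l * x * (hT l)⁻¹) c := by
  obtain ⟨t, u, v, rfl, rfl⟩ := hx
  refine ⟨_, _, _, hT3 l t u v, ?_⟩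
  have h1 : ∀ l : (ZMod 3)ˣ, (l : ZMod 3) ^ 2 = 1 := by decide
  rw [mul_pow, h1 l, one_mul]

theorem F_conj {x b : G1 (ZMod 3) 1} {c : ZMod 3} (hx : F x c) (hb : b • (none : Pt (ZMod 3)) = none) : F (b * x * b⁻¹) c := by
  obtain ⟨t, u, v, l, rfl⟩ := exists_uh hb
  have h1 := F_hT hx l
  obtain ⟨d, hd⟩ := F_of_mem (uG_mem (e := 1) t u v)
  have h2 := F_mul (F_mul hd h1) (F_inv hd)
  have e1 : uG t u v * (hT l * x * (hT l)⁻¹) * (uG t u v)⁻¹ = uG t u v * hT l * x * (uG t u v * hT l)⁻¹ := by group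
  rw [e1] at h2
  rwa [show d + c + -d = c by ring] at h2

/-- the derived group meets `U` in the kernel of the invariant -/
theorem F_zero_of_mem {x : G1 (ZMod 3) 1} (hx : x ∈ commutator (G1 (ZMod 3) 1)) (hU : x ∈ U1 (ZMod 3) 1) : F x 0 := by
  haveI : Fact (Nat.Prime 3) := ⟨Nat.prime_three⟩
  have hc : Nat.card (G1 (ZMod 3) 1) = 1512 := by
    rw [card_G1, Nat.card_zmod]; norm_num
  have hcU : Nat.card (U1 (ZMod 3) 1) = 27 := by
    rw [card_U1, Nat.card_zmod]; norm_num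
  have hidx : (U1 (ZMod 3) 1).index = 56 := by
    have := (U1 (ZMod 3) 1).card_mul_index
    rw [hc, hcU] at this
    omega
  have hp : IsPGroup 3 (U1 (ZMod 3) 1) := IsPGroup.of_card (n := 3) (by rw [hcU]; norm_num)
  let P : Sylow 3 (G1 (ZMod 3) 1) := hp.toSylow (by rw [hidx]; norm_num)
  have hfoc := Subgroup.commutator_inf_eq_focalSubgroup P
  have h1 : x ∈ commutator (G1 (ZMod 3) 1) ⊓ (P : Subgroup (G1 (ZMod 3) 1)) := ⟨hx, hU⟩
  rw [hfoc, Subgroup.focalSubgroup_def] at h1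
  let Q : Subgroup (G1 (ZMod 3) 1) :=
    { carrier := {y | F y 0}
      one_mem' := F_one
      mul_mem' := fun {a b} ha hb => by
        have := F_mul ha hb
        rwa [add_zero] at this
      inv_mem' := fun {a} ha => by
        have := F_inv ha
        rwa [neg_zero] at this }
  have h2 : Subgroup.closure {g | g ∈ (P : Subgroup (G1 (ZMod 3) 1)) ∧ ∃ x ∈ (P : Subgroup (G1 (ZMod 3) 1)), ∃ u, g = ⁅x, u⁆} ≤ Q := by
    rw [Subgroup.closure_le]
    rintro _ ⟨hg, y, hy, u, rfl⟩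
    change F ⁅y, u⁆ 0
    have hg' : ⁅y, u⁆ ∈ U1 (ZMod 3) 1 := hg
    have hy' : y ∈ U1 (ZMod 3) 1 := hy
    by_cases hy1 : y = 1
    · subst hy1
      rw [commutatorElement_one_left]; exact F_one
    have hu : u • (none : Pt (ZMod 3)) = none := by
      have h3 : y⁻¹ * ⁅y, u⁆ ∈ U1 (ZMod 3) 1 := mul_mem (inv_mem hy') hg'
      have h4 : y⁻¹ * ⁅y, u⁆ = u * y⁻¹ * u⁻¹ := by rw [commutatorElement_def]; group
      rw [h4] at h3
      have h5 : (u * y⁻¹ * u⁻¹) • (none : Pt (ZMod 3)) = none := h3.1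
      rw [mul_smul, mul_smul, ← eq_inv_smul_iff] at h5
      have h6 := U1_fix (inv_mem hy') (fun h => hy1 (inv_eq_one.1 h)) h5
      rw [inv_smul_eq_iff] at h6
      exact h6.symm
    obtain ⟨c, hc⟩ := F_of_mem hy'
    have h3 := F_mul hc (F_conj (F_inv hc) hu)
    have h4 : y * (u * y⁻¹ * u⁻¹) = ⁅y, u⁆ := by rw [commutatorElement_def]; group
    rw [h4, add_neg_cancel] at h3
    exact h3
  exact h2 h1

theorem iv_conj (t u v : ZMod 3) : (iv * uG t u v * (iv)⁻¹ : G1 (ZMod 3) 1) = uG (-t) u (-v) := by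
  have := hT3 (-1) t u v
  simp only [Units.val_neg, Units.val_one, neg_mul, one_mul] at this
  exact this

/-- elements with trivial invariant lie in any normal subgroup that contains the involutions' commutators -/
theorem mem_of_F_zero {R : Subgroup (G1 (ZMod 3) 1)} (hR : ∀ t u v : ZMod 3, F (uG t u v) 0 → ⁅iv, uG t u v⁆ ∈ R)
    {x : G1 (ZMod 3) 1} (hx : F x 0) : x ∈ R := by
  have h30 : (3 : ZMod 3) = 0 := by decide
  have hinv : ∀ t u v : ZMod 3, (uG t u v : G1 (ZMod 3) 1)⁻¹ = uG (-t) (-u - t ^ 2) (-v - t * u - 2 * t ^ 3) := by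
    intro t u v
    rw [inv_eq_iff_mul_eq_one, mul3, ← uG_zero]
    congr 1 <;> ring
  have hcomm : ∀ t v : ZMod 3, ∃ w : ZMod 3, ⁅iv, uG t (t ^ 2) v⁆ = uG t (t ^ 2) w ∧ (t = 0 → w = v) := by
    intro t v
    refine ⟨-v + (-v - t * t ^ 2 - 2 * t ^ 3) - (-t) ^ 2 * -t - -t * t ^ 2 + -t * -t * -t, ?_, ?_⟩
    · rw [commutatorElement_def, iv_conj, hinv, mul3]
      congr 1
      · linear_combination (-t) * h30
      · linear_combination (-t ^ 2) * h30
    · rintro rfl
      linear_combination (-v) * h30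
  have hz : ∀ v : ZMod 3, uG 0 0 v ∈ R := by
    intro v
    obtain ⟨w, hw, hw2⟩ := hcomm 0 v
    have h1 := hR 0 (0 ^ 2) v ⟨0, 0 ^ 2, v, rfl, by ring⟩
    rw [hw, hw2 rfl] at h1
    simpa using h1
  obtain ⟨t, u, v, rfl, hc⟩ := hx
  have hu : u = t ^ 2 := by linear_combination -hc
  subst hu
  obtain ⟨w, hw, -⟩ := hcomm t 0
  have h1 := hR t (t ^ 2) 0 ⟨_, _, _, rfl, by ring⟩
  rw [hw] at h1
  have h3 := mul_mem h1 (hz (v - w))
  rw [mul3] at h3
  have h4 : t + 0 = t ∧ t ^ 2 + 0 - t * 0 = t ^ 2 ∧ w + (v - w) - t ^ 2 * 0 - 0 * t ^ 2 + t * 0 * 0 = v :=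
    ⟨by ring, by ring, by ring⟩
  rw [h4.1, h4.2.1, h4.2.2] at h3
  exact h3

theorem uG_mem_comm {t u v : ZMod 3} (h : F (uG t u v) 0) : uG t u v ∈ commutator (G1 (ZMod 3) 1) :=
  mem_of_F_zero (fun _ _ _ _ => Subgroup.commutator_mem_commutator (Subgroup.mem_top _) (Subgroup.mem_top _)) h

theorem card_inf : Nat.card ↥(commutator (G1 (ZMod 3) 1) ⊓ U1 (ZMod 3) 1) = 9 := by
  have e : (ZMod 3 × ZMod 3) ≃ ↥(commutator (G1 (ZMod 3) 1) ⊓ U1 (ZMod 3) 1) := by
    refine Equiv.ofBijective (fun x => ⟨uG x.1 (x.1 ^ 2) x.2, uG_mem_comm ⟨_, _, _, rfl, by ring⟩, uG_mem _ _ _⟩) ⟨?_, ?_⟩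
    · rintro ⟨t, v⟩ ⟨t', v'⟩ h
      obtain ⟨rfl, -, rfl⟩ := uG_inj (congrArg Subtype.val h)
      rfl
    · rintro ⟨x, hx1, hx2⟩
      obtain ⟨t, u, v, rfl, h⟩ := F_zero_of_mem hx1 hx2
      have hu : u = t ^ 2 := by linear_combination -h
      subst hu
      exact ⟨(t, v), rfl⟩
  rw [← Nat.card_congr e, Nat.card_prod, Nat.card_zmod]

theorem index_comm : (commutator (G1 (ZMod 3) 1)).index = 3 := by
  have h1 : U1 (ZMod 3) 1 ⊔ commutator (G1 (ZMod 3) 1) = ⊤ := by
    haveI : (U1 (ZMod 3) 1 ⊔ commutator (G1 (ZMod 3) 1)).Normal := by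
      refine ⟨fun n hn g => ?_⟩
      have h2 : g * n * g⁻¹ = ⁅g, n⁆ * n := by rw [commutatorElement_def]; group
      rw [h2]
      exact mul_mem ((le_sup_right : commutator (G1 (ZMod 3) 1) ≤ _)
        (Subgroup.commutator_mem_commutator (Subgroup.mem_top _) (Subgroup.mem_top _))) hn
    exact normal_gen _ (fun t u v => (le_sup_left : U1 (ZMod 3) 1 ≤ _) (uG_mem t u v))
  have h2 : (commutator (G1 (ZMod 3) 1)).relIndex (U1 (ZMod 3) 1) = 3 := by
    have h3 := ((commutator (G1 (ZMod 3) 1)).subgroupOf (U1 (ZMod 3) 1)).card_mul_index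
    have h4 : Nat.card ((commutator (G1 (ZMod 3) 1)).subgroupOf (U1 (ZMod 3) 1)) = 9 := by
      rw [← card_inf, ← Subgroup.inf_subgroupOf_right]
      exact Nat.card_congr (Subgroup.subgroupOfEquivOfLe inf_le_right).toEquiv
    rw [h4, card_U1, Nat.card_zmod] at h3
    have h5 : (commutator (G1 (ZMod 3) 1)).relIndex (U1 (ZMod 3) 1) =
      ((commutator (G1 (ZMod 3) 1)).subgroupOf (U1 (ZMod 3) 1)).index := rfl
    omega
  rw [← Subgroup.relIndex_top_right, ← h1, Subgroup.relIndex_sup_right, h2]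

theorem card_comm : Nat.card (commutator (G1 (ZMod 3) 1)) = 504 := by
  have h := (commutator (G1 (ZMod 3) 1)).card_mul_index
  rw [index_comm, card_G1, Nat.card_zmod] at h
  omega

theorem hT_cases (l : (ZMod 3)ˣ) : (hT l : G1 (ZMod 3) 1) = 1 ∨ (hT l : G1 (ZMod 3) 1) = iv := by
  have h : ∀ l : (ZMod 3)ˣ, l = 1 ∨ l = -1 := by decide
  rcases h l with rfl | rfl
  · left
    exact map_one (hTH (K := ZMod 3) (e := 1))
  · right; rfl

theorem iv_mem : iv ∈ commutator (G1 (ZMod 3) 1) := by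
  have h := Subgroup.pow_index_mem (commutator (G1 (ZMod 3) 1)) iv
  rw [index_comm, pow_succ, sq, inv_sq, one_mul] at h
  exact h

/-- the derived group is perfect -/
theorem perfect' : ⁅commutator (G1 (ZMod 3) 1), commutator (G1 (ZMod 3) 1)⁆ = commutator (G1 (ZMod 3) 1) := by
  set D := ⁅commutator (G1 (ZMod 3) 1), commutator (G1 (ZMod 3) 1)⁆ with hD
  have hFD : ∀ {x : G1 (ZMod 3) 1}, F x 0 → x ∈ D := fun {x} hx =>
    mem_of_F_zero (fun t u v h => Subgroup.commutator_mem_commutator iv_mem (uG_mem_comm h)) hx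
  have hDle : D ≤ commutator (G1 (ZMod 3) 1) := Subgroup.commutator_le_left _ _
  have hDn : D.Normal := Subgroup.commutator_normal _ _
  have hne : D ≠ ⊥ := by
    intro h
    have h1 : (uG 0 0 1 : G1 (ZMod 3) 1) ∈ D := hFD ⟨0, 0, 1, rfl, by ring⟩
    rw [h, Subgroup.mem_bot, ← uG_zero] at h1
    exact one_ne_zero (uG_inj h1).2.2
  -- an involution of `D`
  have hiv : iv ∈ D := by
    haveI : IsPretransitive D (Pt (ZMod 3)) := ⟨fun x y => by
      obtain ⟨n, hn, h⟩ := normal_trans D hne x y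
      exact ⟨⟨n, hn⟩, h⟩⟩
    have h1 := (stabilizer D (none : Pt (ZMod 3))).card_mul_index
    rw [index_stabilizer_of_transitive] at h1
    have h28 : Nat.card (Pt (ZMod 3)) = 28 := by rw [Nat.card_eq_fintype_card]; rfl
    rw [h28] at h1
    haveI : Fact (Nat.Prime 2) := ⟨Nat.prime_two⟩
    obtain ⟨⟨x, hx⟩, hx2⟩ := exists_prime_orderOf_dvd_card' (G := D) 2 (by omega)
    rw [Subgroup.orderOf_mk] at hx2
    have hxx : x * x = 1 := by rw [← sq, ← hx2, pow_orderOf_eq_one]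
    have hx1 : x ≠ 1 := by rintro rfl; rw [orderOf_one] at hx2; norm_num at hx2
    obtain ⟨g, hg⟩ := H24.ReeInvo.invo_conj (K := ZMod 3) (e := 1) (m := 0) (by rw [Nat.card_zmod]; norm_num) hxx hx1
    rw [← hg]
    exact hDn.conj_mem _ hx g
  refine le_antisymm hDle ?_
  intro g hg
  obtain ⟨n, hn, h⟩ := normal_trans D hne (none : Pt (ZMod 3)) (g • none)
  have hb : (n⁻¹ * g) • (none : Pt (ZMod 3)) = none := by rw [mul_smul, inv_smul_eq_iff, h]
  obtain ⟨t, u, v, l, hl⟩ := exists_uh hb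
  have hlD : (hT l : G1 (ZMod 3) 1) ∈ D := by
    rcases hT_cases l with h' | h'
    · rw [h']; exact one_mem D
    · rw [h']; exact hiv
  have h1 : uG t u v ∈ commutator (G1 (ZMod 3) 1) := by
    have : uG t u v = (n⁻¹ * g) * (hT l)⁻¹ := by rw [hl]; group
    rw [this]
    exact mul_mem (mul_mem (inv_mem (hDle hn)) hg) (inv_mem (hDle hlD))
  have h2 : n⁻¹ * g ∈ D := by
    rw [hl]
    exact mul_mem (hFD (F_zero_of_mem h1 (uG_mem t u v))) hlD
  have h3 : g = n * (n⁻¹ * g) := by group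
  rw [h3]
  exact mul_mem hn h2

theorem simple' : IsSimpleGroup (commutator (G1 (ZMod 3) 1)) := by
  have hne : commutator (G1 (ZMod 3) 1) ≠ ⊥ := by
    intro h
    have := card_comm
    rw [h, Subgroup.card_bot] at this
    norm_num at this
  haveI : IsPretransitive (commutator (G1 (ZMod 3) 1)) (Pt (ZMod 3)) := ⟨fun x y => by
    obtain ⟨n, hn, h⟩ := normal_trans (commutator (G1 (ZMod 3) 1)) hne x y
    exact ⟨⟨n, hn⟩, h⟩⟩
  haveI : FaithfulSMul (commutator (G1 (ZMod 3) 1)) (Pt (ZMod 3)) := ⟨fun {a b} h => by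
    have h1 : (b : G1 (ZMod 3) 1)⁻¹ * a = 1 := by
      apply faithful
      intro p
      rw [mul_smul, inv_smul_eq_iff]
      exact h p
    exact Subtype.ext (by rw [inv_mul_eq_one] at h1; exact h1.symm)⟩
  haveI : Nontrivial (commutator (G1 (ZMod 3) 1)) := by
    rw [Subgroup.nontrivial_iff_ne_bot]; exact hne
  have h28 : Nat.card (Pt (ZMod 3)) = 28 := by rw [Nat.card_eq_fintype_card]; rfl
  refine simple_of (M := commutator (G1 (ZMod 3) 1)) (none : Pt (ZMod 3)) h28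
    ((U1 (ZMod 3) 1).subgroupOf (commutator (G1 (ZMod 3) 1))) ?_ ?_ ?_ ?_ ?_
  · rw [← card_inf, ← Subgroup.inf_subgroupOf_left]
    exact Nat.card_congr (Subgroup.subgroupOfEquivOfLe inf_le_left).toEquiv
  · rintro ⟨u, hu⟩ hu2
    exact (Subgroup.mem_subgroupOf.1 hu2).1
  · rintro ⟨u, hu⟩ hu2 hu1 x hx
    exact U1_fix (Subgroup.mem_subgroupOf.1 hu2) (fun h => hu1 (Subtype.ext h)) hx
  · haveI := solvable_stab (K := ZMod 3) (e := 1) (n := 1) (by rw [Nat.card_zmod]; norm_num)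
    let f : stabilizer (commutator (G1 (ZMod 3) 1)) (none : Pt (ZMod 3)) →* stabilizer (G1 (ZMod 3) 1) (none : Pt (ZMod 3)) :=
      { toFun := fun x => ⟨(x : commutator (G1 (ZMod 3) 1)), x.2⟩
        map_one' := rfl
        map_mul' := fun _ _ => rfl }
    have hf : Function.Injective f := by
      intro a b h
      have h1 : ((a : commutator (G1 (ZMod 3) 1)) : G1 (ZMod 3) 1) = ((b : commutator (G1 (ZMod 3) 1)) : G1 (ZMod 3) 1) :=
        congrArg (fun z : stabilizer (G1 (ZMod 3) 1) (none : Pt (ZMod 3)) => (z : G1 (ZMod 3) 1)) h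
      exact Subtype.ext (Subtype.ext h1)
    exact Group.isSolvable_of_isSolvable_injective hf
  · have h := Subgroup.map_subtype_commutator (commutator (G1 (ZMod 3) 1))
    rw [perfect'] at h
    apply Subgroup.map_injective (Subgroup.subtype_injective (commutator (G1 (ZMod 3) 1)))
    rw [h, ← MonoidHom.range_eq_map, Subgroup.range_subtype]

end H24.ReeThree
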